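import Cfsg.Agent.MaxSub.TensorPow.Split

/-!
A square-zero tensor product `B ⊗ k - 1` of rank at most `dim W` has one trivial factor.
-/

set_option autoImplicit false
set_option linter.style.haveILetI false

namespace Cfsg.Agent.MaxSub.TensorPow

open Module Matrix Cfsg.Agent.MaxSub.ExtField

variable {F : Type*} [Field F] {m : ℕ} {W : Type*} [AddCommGroup W] [Module F W]

/-- The one trivial factor. -/
theorem one_factor [Finite F] [FiniteDimensional F W] [Nontrivial W] (hm : 3 ≤ m)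
    {h : (Fin m → W) ≃ₗ[F] (Fin m → W)} (hT : IsT h)
    (hsq : ∀ X, h (h X - X) = h X - X)
    (hrank : finrank F (LinearMap.range (h.toLinearMap - LinearMap.id)) ≤ finrank F W) :
    (∃ B : Matrix (Fin m) (Fin m) F, ∀ (u : Fin m → F) (w : W), h (ins (F := F) u w) = ins (W := W) (B *ᵥ u) w) ∨
    (∃ k : W →ₗ[F] W, ∀ (u : Fin m → F) (w : W), h (ins (F := F) u w) = ins (W := W) u (k w)) := by
  classical
  obtain ⟨B, k, hBk⟩ := hT
  obtain ⟨p, hpF⟩ := CharP.exists F
  haveI := hpF
  haveI : Fact p.Prime := ⟨CharP.char_is_prime F p⟩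
  haveI : NeZero m := ⟨by omega⟩
  haveI : ExpChar F p := ExpChar.prime Fact.out
  -- `h ^ p = 1`
  have hpow : ∀ (j : ℕ) X, (⇑h)^[j] X = X + j • (h X - X) := fun j => by
    induction j with
    | zero => simp
    | succ j ih =>
      intro X
      rw [Function.iterate_succ_apply', ih, map_add, map_nsmul, hsq, succ_nsmul]
      abel
  have hiter : ∀ (j : ℕ) u w, (⇑h)^[j] (ins u w) = ins ((B ^ j) *ᵥ u) ((⇑k)^[j] w) := fun j => by
    induction j with
    | zero => simp
    | succ j ih =>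
      intro u w
      rw [Function.iterate_succ_apply', ih, hBk, pow_succ', ← Matrix.mulVec_mulVec,
        Function.iterate_succ_apply']
  have hp1 : ∀ u w, ins ((B ^ p) *ᵥ u) ((⇑k)^[p] w) = ins u w := fun u w => by
    rw [← hiter, hpow, ← Nat.cast_smul_eq_nsmul F, CharP.cast_eq_zero, zero_smul, add_zero]
  obtain ⟨w₁, hw₁⟩ := exists_ne (0 : W)
  obtain ⟨c, hc0, hcB, hck⟩ : ∃ c : F, c ≠ 0 ∧ B ^ p = c • 1 ∧ ∀ w, c • (⇑k)^[p] w = w := by
    set u₁ : Fin m → F := Pi.single 0 1
    have hk1 : ∀ w, ((B ^ p) *ᵥ u₁) 0 • (⇑k)^[p] w = w := fun w => by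
      have := congrFun (hp1 u₁ w) 0
      simpa [u₁] using this
    set c := ((B ^ p) *ᵥ u₁) 0
    have hc0 : c ≠ 0 := fun h0 => hw₁ (by rw [← hk1 w₁, h0, zero_smul])
    refine ⟨c, hc0, ?_, hk1⟩
    refine Matrix.ext_of_mulVec_single fun i => funext fun j => ?_
    have h1 := congrFun (hp1 (Pi.single i 1) w₁) j
    have hkw : (⇑k)^[p] w₁ = c⁻¹ • w₁ := by
      conv_rhs => rw [← hk1 w₁]
      rw [inv_smul_smul₀ hc0]
    simp only [ins_apply, hkw, smul_smul] at h1
    have h2 := smul_left_injective F hw₁ h1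
    rw [Matrix.smul_mulVec, Matrix.one_mulVec, Pi.smul_apply, smul_eq_mul, ← h2]
    field_simp
  obtain ⟨d, hd⟩ := (bijective_frobenius F p).2 c
  rw [frobenius_def] at hd
  have hd0 : d ≠ 0 := fun h0 => hc0 (by rw [← hd, h0, zero_pow (Fact.out : p.Prime).ne_zero])
  set α : Module.End F (Fin m → F) := d⁻¹ • Matrix.toLin' B - 1 with hα
  set κ : Module.End F W := d • k.toLinearMap - 1 with hκ
  haveI : CharP (Module.End F (Fin m → F)) p :=
    charP_of_injective_algebraMap (algebraMap F _).injective p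
  haveI : CharP (Module.End F W) p :=
    charP_of_injective_algebraMap (algebraMap F _).injective p
  have hαp : α ^ p = 0 := by
    have h1 : (Matrix.toLin' B : Module.End F (Fin m → F)) ^ p = c • 1 := by
      rw [← Matrix.toLin'_pow, hcB, map_smul, Matrix.toLin'_one]; rfl
    rw [hα, sub_pow_char_of_commute p (Commute.one_right _), one_pow, smul_pow, inv_pow, hd, h1,
      inv_smul_smul₀ hc0, sub_self]
  have hκp : κ ^ p = 0 := by
    have h1 : c • (k.toLinearMap : Module.End F W) ^ p = 1 := LinearMap.ext fun w => by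
      rw [LinearMap.smul_apply, Module.End.pow_apply]; exact hck w
    rw [hκ, sub_pow_char_of_commute p (Commute.one_right _), one_pow, smul_pow, hd, h1, sub_self]
  have hform : ∀ u w, h (ins u w) = ins (u + α u) (w + κ w) := fun u w => by
    rw [hBk, hα, hκ]
    funext i
    simp [smul_smul, hd0, mul_comm]
  by_cases hκ0 : κ = 0
  · exact Or.inl ⟨d⁻¹ • B, fun u w => by
      rw [hform, hκ0]; funext i; simp [hα, Matrix.smul_mulVec]⟩
  by_cases hα0 : α = 0
  · exact Or.inr ⟨1 + κ, fun u w => by rw [hform, hα0]; simp⟩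
  exfalso
  set b := finrank F W
  set Z := LinearMap.ker κ with hZ
  set e := finrank F (LinearMap.range κ) with he
  have he0 : 1 ≤ e := by
    rw [Nat.one_le_iff_ne_zero]
    intro h0
    exact hκ0 (LinearMap.range_eq_bot.1 (Submodule.finrank_eq_zero.1 h0))
  have heZ : e + finrank F Z = b := κ.finrank_range_add_finrank_ker
  have hZ0 : ∃ w, w ≠ 0 ∧ κ w = 0 := by
    by_contra hc'
    push Not at hc'
    have hinj : Function.Injective κ := (injective_iff_map_eq_zero _).2 fun w hw => by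
      by_contra hw0; exact hc' w hw0 hw
    have hinj' : Function.Injective (κ ^ p : Module.End F W) := by
      rw [Module.End.coe_pow]; exact hinj.iterate p
    exact hw₁ (hinj' (by rw [hκp]; simp))
  have hαα : ∀ u, α (α u) = 0 := fun u => by
    obtain ⟨w, hw0, hw⟩ := hZ0
    have h1 := hsq (ins u w)
    rw [hform, hw, add_zero, ← ins_sub, add_sub_cancel_left, hform, hw, add_zero] at h1
    rw [← sub_eq_zero, ← ins_sub, add_sub_cancel_left] at h1
    by_contra hne
    exact hw0 (ins_injective hne (h1.trans (map_zero _).symm))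
  have hr : finrank F (LinearMap.range α) + 2 ≤ m := by
    have h1 := α.finrank_range_add_finrank_ker
    have h2 : LinearMap.range α ≤ LinearMap.ker α := by
      rintro _ ⟨u, rfl⟩; exact hαα u
    have h3 := Submodule.finrank_mono h2
    rw [finrank_fin_fun] at h1
    omega
  obtain ⟨μ₁, hμ₁0, hμ₁⟩ := exists_perp_ne (S := LinearMap.range α) fun h0 => by
    rw [h0, finrank_top, finrank_fin_fun] at hr; omega
  obtain ⟨u₁, hu₁⟩ := exists_dot_one hμ₁0
  rw [dotProduct_comm] at hu₁
  obtain ⟨μ₂, hμ₂0, hμ₂⟩ := exists_perp_ne (S := LinearMap.range α ⊔ F ∙ u₁) fun h0 => by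
    have h4 := Submodule.finrank_add_le_finrank_add_finrank (LinearMap.range α) (F ∙ u₁)
    have h5 : finrank F (F ∙ u₁) ≤ 1 := by
      rcases eq_or_ne u₁ 0 with rfl | hne
      · rw [Submodule.span_zero_singleton, finrank_bot]; omega
      · rw [finrank_span_singleton hne]
    rw [h0, finrank_top, finrank_fin_fun] at h4
    omega
  obtain ⟨u₂, hu₂⟩ := exists_dot_one hμ₂0
  rw [dotProduct_comm] at hu₂
  have hμ₂u₁ : μ₂ ⬝ᵥ u₁ = 0 :=
    hμ₂ u₁ (Submodule.mem_sup_right (Submodule.mem_span_singleton_self u₁))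
  have hμ₂α : ∀ u, μ₂ ⬝ᵥ α u = 0 := fun u =>
    hμ₂ _ (Submodule.mem_sup_left ⟨u, rfl⟩)
  have hμ₁α : ∀ u, μ₁ ⬝ᵥ α u = 0 := fun u => hμ₁ _ ⟨u, rfl⟩
  obtain ⟨u₀, hu₀⟩ : ∃ u, α u ≠ 0 := by
    by_contra hc'; push Not at hc'; exact hα0 (LinearMap.ext hc')
  set N : (Fin m → W) →ₗ[F] (Fin m → W) := h.toLinearMap - LinearMap.id with hN
  set L : (W × W) × Z →ₗ[F] (Fin m → W) :=
    N ∘ₗ ((ins u₁).coprod (ins u₂)).coprod (ins u₀ ∘ₗ Z.subtype) with hL
  have hLle : finrank F (LinearMap.range L) ≤ b :=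
    (Submodule.finrank_mono (LinearMap.range_comp_le_range _ _)).trans hrank
  have hker : ∀ q ∈ LinearMap.ker L, κ q.1.1 = 0 ∧ κ q.1.2 = 0 := by
    rintro ⟨⟨x, y⟩, z⟩ hq
    have hz : κ (z : W) = 0 := z.2
    rw [LinearMap.mem_ker] at hq
    have e1 := congrArg (ev μ₁) hq
    have e2 := congrArg (ev μ₂) hq
    simp [hL, hN, hform, map_sub, ev_ins, dotProduct_add, hμ₁α, hμ₂α, hz, hu₁, hu₂, hμ₂u₁,
      add_smul, -ev_apply] at e1 e2
    rw [e2] at e1
    simp at e1
    exact ⟨e1, e2⟩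
  set Pr : LinearMap.ker L →ₗ[F] Z × Z :=
    LinearMap.prod
      (LinearMap.codRestrict Z (LinearMap.fst F W W ∘ₗ LinearMap.fst F (W × W) Z ∘ₗ
        (LinearMap.ker L).subtype) fun q => (hker q q.2).1)
      (LinearMap.codRestrict Z (LinearMap.snd F W W ∘ₗ LinearMap.fst F (W × W) Z ∘ₗ
        (LinearMap.ker L).subtype) fun q => (hker q q.2).2) with hPr
  have hPinj : Function.Injective Pr := by
    rw [injective_iff_map_eq_zero]
    rintro ⟨⟨⟨x, y⟩, z⟩, hq⟩ h0
    have hx : x = 0 := congrArg (fun r : Z × Z => (r.1 : W)) h0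
    have hy : y = 0 := congrArg (fun r : Z × Z => (r.2 : W)) h0
    have hz : κ (z : W) = 0 := z.2
    subst hx hy
    have e : L ((0, 0), z) = ins (α u₀) (z : W) := by
      simp [hL, hN, hform, hz, ins_add]
    have : (z : W) = 0 := ins_injective hu₀ ((e.symm.trans hq).trans (map_zero _).symm)
    ext <;> simp [this]
  have h1 := L.finrank_range_add_finrank_ker
  have h2 := LinearMap.finrank_le_finrank_of_injective hPinj
  rw [Module.finrank_prod] at h2
  rw [Module.finrank_prod, Module.finrank_prod] at h1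
  omega

end Cfsg.Agent.MaxSub.TensorPow
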