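import Cfsg.Agent.MaxSub.TensorPow.Tens
import Cfsg.Agent.MaxSub.TensorPow.Rank

/-!
Elements `n` of the monomial group with `(n - 1)² = 0` and rank at most `dim / m`: the permutation
is trivial or a transposition, and in the trivial case `n - 1` maps into one block.
-/

set_option autoImplicit false
set_option linter.style.haveILetI false
set_option linter.unusedSectionVars false

namespace Cfsg.Agent.MaxSub.TensorPow

open Module Matrix Cfsg.Agent.MaxSub.ExtField

variable {F : Type*} [Field F] [Finite F] {m t : ℕ}

lemma finrank_ten : finrank F (Ten F m t) = m ^ t := by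
  rw [Module.finrank_fintype_fun_eq_card, Fintype.card_fun, Fintype.card_fin, Fintype.card_fin]

/-- The span of the pure tensors with `s` at the factor `j`. -/
def bspan (j : Fin t) (s : Fin m → F) : Submodule F (Ten F m t) :=
  Submodule.span F (pvec '' {us | us j = s})

lemma pvec_pure_eq {a b : Fin t → Fin m → F} (h : pvec a = pvec b) (hb : ∀ i, b i ≠ 0) (j : Fin t) :
    a j ∈ F ∙ b j := by
  classical
  by_contra hj
  have ha : ∀ i, a i ≠ 0 := fun i h0 => pvec_ne_zero hb (by rw [← h, pvec_eq_zero h0])
  obtain ⟨χ, h1, h2⟩ := exists_perp hj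
  choose ψ hψ using fun i => exists_dot_one (ha i)
  have e := congrArg (fprod (Function.update ψ j χ)) h
  rw [fprod_pvec, fprod_pvec, Finset.prod_eq_one (fun i _ => ?_),
    Finset.prod_eq_zero (Finset.mem_univ j)
      (by rw [Function.update_self, h2 _ (Submodule.mem_span_singleton_self _)])] at e
  · exact one_ne_zero e
  · rcases eq_or_ne i j with rfl | hi
    · rw [Function.update_self, h1]
    · rw [Function.update_of_ne hi, hψ]

lemma single_ne_zero' (a : Fin m) : (Pi.single a (1 : F) : Fin m → F) ≠ 0 := by simp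

lemma wit_one (hm : 2 ≤ m) {σ : Equiv.Perm (Fin t)} {A : Fin t → Matrix (Fin m) (Fin m) F}
    (h : Wit σ A (1 : Ten F m t ≃ₗ[F] Ten F m t)) : σ = 1 := by
  classical
  refine Equiv.ext fun j => by_contra fun hj => ?_
  rw [Equiv.Perm.one_apply] at hj
  set e : Fin m → F := Pi.single ⟨0, by omega⟩ 1
  obtain ⟨w, hw⟩ := wit_surjective hm h j (Pi.single ⟨1, by omega⟩ 1)
  set us : Fin t → Fin m → F := Function.update (fun _ => e) (σ j) w
  have hne : ∀ i, us i ≠ 0 := fun i h0 => by
    rcases eq_or_ne i (σ j) with rfl | hi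
    · rw [show us (σ j) = w from Function.update_self ..] at h0
      subst h0
      rw [Matrix.mulVec_zero] at hw
      exact single_ne_zero' _ hw.symm
    · rw [show us i = e from Function.update_of_ne hi ..] at h0
      exact single_ne_zero' _ h0
  have h1 := pvec_pure_eq ((h us).symm) hne j
  simp only [us, Function.update_self, Function.update_of_ne (Ne.symm hj)] at h1
  rw [hw, Submodule.mem_span_singleton] at h1
  obtain ⟨c, hc⟩ := h1
  simpa [e, Pi.single_apply, Fin.ext_iff] using congrFun hc ⟨1, by omega⟩

variable {σ : Equiv.Perm (Fin t)} {A : Fin t → Matrix (Fin m) (Fin m) F}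
  {n : Ten F m t ≃ₗ[F] Ten F m t}

lemma sigma_sq (hm : 3 ≤ m) (hn : Wit σ A n) (hsq : ∀ X, n (n X - X) = n X - X) (j : Fin t) :
    σ (σ j) = j := by
  classical
  by_contra hj
  have hj1 : σ j ≠ j := fun h => hj (by rw [h, h])
  have hj2 : σ (σ j) ≠ σ j := fun h => hj1 (σ.injective h)
  set e : Fin m → F := Pi.single ⟨0, by omega⟩ 1
  obtain ⟨ψj, hψ0, hψe, hψA⟩ := exists_perp_two hm e (A j *ᵥ e)
  obtain ⟨v, hv⟩ := exists_dot_one hψ0
  rw [dotProduct_comm] at hv
  obtain ⟨w₁, hw₁⟩ := wit_surjective (by omega) hn j v
  obtain ⟨w, hw⟩ := wit_surjective (by omega) hn (σ j) w₁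
  set us : Fin t → Fin m → F := Function.update (fun _ => e) (σ (σ j)) w
  have hne : ∀ i, us i ≠ 0 := fun i h0 => by
    rcases eq_or_ne i (σ (σ j)) with rfl | hi
    · rw [show us (σ (σ j)) = w from Function.update_self ..] at h0
      rw [h0, Matrix.mulVec_zero] at hw
      rw [← hw, Matrix.mulVec_zero] at hw₁
      rw [← hw₁, dotProduct_zero] at hv
      exact zero_ne_one hv
    · rw [show us i = e from Function.update_of_ne hi ..] at h0
      exact single_ne_zero' _ h0
  set a : Fin t → Fin m → F := fun i => A i *ᵥ (A (σ i) *ᵥ us (σ (σ i)))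
  have ha : ∀ i, a i ≠ 0 := fun i h0 => hne (σ (σ i)) (wit_injective (by omega) hn (σ i)
    ((wit_injective (by omega) hn i (h0.trans (Matrix.mulVec_zero _).symm)).trans
      (Matrix.mulVec_zero _).symm))
  choose ψ hψ using fun i => exists_dot_one (ha i)
  set f := fprod (Function.update ψ j ψj)
  have h0 : f (pvec us) = 0 := by
    rw [fprod_pvec, Finset.prod_eq_zero (Finset.mem_univ j)]
    rw [Function.update_self, show us j = e from Function.update_of_ne (Ne.symm hj) .., hψe]
  have h1 : f (n (pvec us)) = 0 := by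
    rw [hn, fprod_pvec, Finset.prod_eq_zero (Finset.mem_univ j)]
    rw [Function.update_self, show us (σ j) = e from Function.update_of_ne hj2.symm .., hψA]
  have h2 : f (n (n (pvec us))) = 1 := by
    rw [hn, hn, fprod_pvec, Finset.prod_eq_one fun i _ => ?_]
    rcases eq_or_ne i j with rfl | hi
    · rw [Function.update_self, show us (σ (σ i)) = w from Function.update_self .., hw, hw₁, hv]
    · rw [Function.update_of_ne hi]; exact hψ i
  have := congrArg f (hsq (pvec us))
  rw [map_sub, map_sub, map_sub, h0, h1, h2] at this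
  exact one_ne_zero (by linear_combination this)

lemma wit_pow (hn : Wit σ A n) (k : ℕ) : ∃ B, Wit (σ ^ k) B (n ^ k) := by
  induction k with
  | zero => exact ⟨_, wit_refl⟩
  | succ k ih =>
    obtain ⟨B, hB⟩ := ih
    rw [pow_succ σ, pow_succ' n]
    exact ⟨_, hn.mul hB⟩

/-- The permutation is trivial or a transposition. -/
theorem sign_of_ne_one (hm : 3 ≤ m) (hn : Wit σ A n) (hsq : ∀ X, n (n X - X) = n X - X)
    (hrank : finrank F (LinearMap.range (n.toLinearMap - LinearMap.id)) * m ≤ m ^ t)
    (hσ : σ ≠ 1) : Equiv.Perm.sign σ = -1 := by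
  classical
  obtain ⟨p, hpF⟩ := CharP.exists F
  haveI := hpF
  haveI : Fact p.Prime := ⟨CharP.char_is_prime F p⟩
  have hinv : ∀ i, σ (σ i) = i := sigma_sq hm hn hsq
  have hs2 : σ ^ 2 = 1 := Equiv.ext fun i => by rw [pow_two]; exact hinv i
  have hpow : ∀ (k : ℕ) X, (n ^ k) X = X + k • (n X - X) := fun k => by
    induction k with
    | zero => simp
    | succ k ih =>
      intro X
      rw [pow_succ', LinearEquiv.mul_apply, ih, map_add, map_nsmul, hsq, succ_nsmul]
      abel
  have hnp : n ^ p = 1 := LinearEquiv.ext fun X => by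
    rw [hpow, ← Nat.cast_smul_eq_nsmul F, CharP.cast_eq_zero, zero_smul, add_zero]; rfl
  obtain ⟨B, hB⟩ := wit_pow hn p
  rw [hnp] at hB
  have hσp : σ ^ p = 1 := wit_one (by omega) hB
  have hp2 : p = 2 := by
    by_contra hp
    obtain ⟨k, hk⟩ := (Fact.out : p.Prime).odd_of_ne_two hp
    rw [hk, pow_succ, pow_mul, hs2, one_pow, one_mul] at hσp
    exact hσ hσp
  subst hp2
  -- products `A i A (σ i)` are scalar
  have hscal : ∀ i v, A i *ᵥ (A (σ i) *ᵥ v) ∈ F ∙ v := fun i v => by
    rcases eq_or_ne v 0 with rfl | hv
    · simp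
    set us : Fin t → Fin m → F := fun _ => v
    have h2 : n (n (pvec us)) = pvec us := by
      rw [← LinearEquiv.mul_apply, ← pow_two, hnp]; rfl
    rw [hn, hn] at h2
    exact pvec_pure_eq h2 (fun _ => hv) i
  -- a first moved pair
  obtain ⟨j₀, hj₀⟩ : ∃ j, σ j ≠ j := by
    by_contra hc; push Not at hc; exact hσ (Equiv.ext hc)
  obtain ⟨j, k, hjk, hσj⟩ : ∃ j k, j < k ∧ σ j = k := by
    rcases lt_or_gt_of_ne hj₀ with h | h
    · exact ⟨σ j₀, j₀, h, hinv j₀⟩
    · exact ⟨j₀, σ j₀, h, rfl⟩
  have hσk : σ k = j := hσj ▸ hinv j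
  suffices ∀ i, i ≠ j → i ≠ k → σ i = i by
    rw [show σ = Equiv.swap j k from Equiv.ext fun i => by
      rcases eq_or_ne i j with rfl | hij
      · rw [Equiv.swap_apply_left, hσj]
      rcases eq_or_ne i k with rfl | hik
      · rw [Equiv.swap_apply_right, hσk]
      rw [Equiv.swap_apply_of_ne_of_ne hij hik, this i hij hik],
      Equiv.Perm.sign_swap hjk.ne]
  intro i hij hik
  by_contra hi
  obtain ⟨l, q, hlq, hσl, hlj, hlk⟩ : ∃ l q, l < q ∧ σ l = q ∧ l ∉ [j, k] ∧ q ∉ [j, k] := by
    have h1 : σ i ≠ j := fun h => hik (by rw [← hinv i, h, hσj])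
    have h2 : σ i ≠ k := fun h => hij (by rw [← hinv i, h, hσk])
    rcases lt_or_gt_of_ne hi with h | h
    · exact ⟨σ i, i, h, hinv i, by simp [h1, h2], by simp [hij, hik]⟩
    · exact ⟨i, σ i, h, rfl, by simp [hij, hik], by simp [h1, h2]⟩
  simp only [List.mem_cons, List.not_mem_nil, or_false, not_or] at hlj hlk
  have hσq : σ q = l := hσl ▸ hinv l
  -- a basis adapted to `n` at each factor
  let Q : Fin t → Matrix (Fin m) (Fin m) F := fun i => if σ i < i then A i else 1
  have hQu : ∀ i, IsUnit (Q i).det := fun i => by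
    simp only [Q]
    split_ifs
    · exact (Matrix.isUnit_iff_isUnit_det _).1
        (Matrix.mulVec_injective_iff_isUnit.1 (wit_injective (by omega) hn i))
    · simp
  let f : (Fin t → Fin m) → Ten F m t := fun z => pvec fun i => Q i *ᵥ Pi.single (z i) 1
  let ψ : (Fin t → Fin m) → Ten F m t →ₗ[F] F := fun w => fprod fun i => (Q i)⁻¹ (w i)
  have hdual : ∀ i a b, (Q i)⁻¹ a ⬝ᵥ (Q i *ᵥ Pi.single b 1) = if a = b then 1 else 0 := fun i a b => by
    rw [show (Q i)⁻¹ a ⬝ᵥ (Q i *ᵥ Pi.single b 1) = ((Q i)⁻¹ *ᵥ (Q i *ᵥ Pi.single b 1)) a from rfl,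
      Matrix.mulVec_mulVec, Matrix.nonsing_inv_mul _ (hQu i), Matrix.one_mulVec, Pi.single_apply]
  have hψf : ∀ w z, ψ w (f z) = if w = z then 1 else 0 := fun w z => by
    simp only [ψ, f, fprod_pvec, hdual, Finset.prod_ite_zero, Finset.mem_univ, forall_const,
      Finset.prod_const_one]
    exact if_congr ⟨fun h => funext h, fun h _ => h ▸ rfl⟩ rfl rfl
  have hmove : ∀ w z i', σ i' ≠ i' → z (σ i') ≠ w i' → ψ w (n (f z)) = 0 := by
    intro w z i' hi' hne
    simp only [ψ, f, hn _, fprod_pvec]
    refine Finset.prod_eq_zero (Finset.mem_univ i') ?_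
    rcases lt_or_gt_of_ne hi' with h | h
    · have e : Q i' = A i' := if_pos h
      have e' : Q (σ i') = 1 := if_neg (by rw [hinv]; exact h.not_gt)
      rw [e', Matrix.one_mulVec, ← e, hdual, if_neg (Ne.symm hne)]
    · have e : Q i' = 1 := if_neg h.not_gt
      have e' : Q (σ i') = A (σ i') := if_pos (by rw [hinv]; exact h)
      obtain ⟨c, hc⟩ := Submodule.mem_span_singleton.1 (hscal i' (Pi.single (z (σ i')) 1))
      rw [e', ← hc, dotProduct_smul, ← Matrix.one_mulVec (Pi.single (z (σ i')) 1), ← e, hdual,
        if_neg (Ne.symm hne), smul_zero]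
  -- an independent family
  haveI : NeZero m := ⟨by omega⟩
  let good : (Fin t → Fin m) → Prop := fun z =>
    z j < z k ∨ (z j = z k ∧ z l < z q)
  have hgood : ∀ w z : {z // good z}, ψ w.1 (n (f z.1)) = 0 := by
    rintro ⟨w, hw⟩ ⟨z, hz⟩
    by_contra hne
    have hk : ∀ i', σ i' ≠ i' → z (σ i') = w i' :=
      fun i' hi' => by_contra fun h => hne (hmove w z i' hi' h)
    have ej : z k = w j := hσj ▸ hk j (by rw [hσj]; exact hjk.ne')
    have ek : z j = w k := hσk ▸ hk k (by rw [hσk]; exact hjk.ne)
    have el : z q = w l := hσl ▸ hk l (by rw [hσl]; exact hlq.ne')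
    have eq' : z l = w q := hσq ▸ hk q (by rw [hσq]; exact hlq.ne)
    rcases hw with hw | ⟨hw1, hw2⟩ <;> rcases hz with hz | ⟨hz1, hz2⟩
    all_goals simp only [Fin.lt_def, Fin.ext_iff] at *
    all_goals omega
  let D := n.toLinearMap - (LinearMap.id : Ten F m t →ₗ[F] Ten F m t)
  let g : {z // good z} → LinearMap.range D :=
    fun z => ⟨D (f z.1), LinearMap.mem_range_self D _⟩
  have hind : LinearIndependent F g := by
    rw [Fintype.linearIndependent_iff]
    intro c hc w
    have h1 := congrArg (fun X : LinearMap.range D => ψ w.1 (X : Ten F m t)) hc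
    simp only [g, D, Submodule.coe_sum, Submodule.coe_smul, map_sum, map_smul, LinearMap.sub_apply,
      LinearEquiv.coe_coe, LinearMap.id_apply, map_sub, hgood, hψf, Submodule.coe_zero, map_zero,
      smul_eq_mul] at h1
    rw [Finset.sum_eq_single w (fun z _ hz => by
      rw [if_neg (fun h => hz (Subtype.ext h.symm)), sub_self, mul_zero]) (by simp)] at h1
    simpa using h1
  have hcard := hind.fintype_card_le_finrank
  -- counting
  let i0 : Fin m := ⟨0, by omega⟩
  let i1 : Fin m := ⟨1, by omega⟩
  let iL : Fin m := ⟨m - 1, by omega⟩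
  let pick : Fin m → Fin m × Fin m := fun a => if a.1 + 1 = m then (i0, i1) else (a, iL)
  let up : ({i // i ≠ k} → Fin m) → Fin t → Fin m := fun r i =>
    if i = j then (pick (r ⟨j, hjk.ne⟩)).1 else if hik : i = k then (pick (r ⟨j, hjk.ne⟩)).2
    else r ⟨i, hik⟩
  let z₀ : Fin t → Fin m := fun i => if i = q then i1 else i0
  have hup : ∀ r, up r j < up r k := fun r => by
    simp only [up, if_true, if_neg hjk.ne', dite_true, pick, i0, i1, iL]
    split_ifs with h <;> simp [Fin.lt_def]
    have := (r ⟨j, hjk.ne⟩).isLt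
    omega
  let emb : ({i // i ≠ k} → Fin m) ⊕ Unit → {z // good z} := Sum.elim
    (fun r => ⟨up r, Or.inl (hup r)⟩)
    (fun _ => ⟨z₀, Or.inr ⟨by simp [z₀, Ne.symm hlk.1, Ne.symm hlk.2],
      by simp [z₀, hlq.ne, i0, i1, Fin.lt_def]⟩⟩)
  have hemb : Function.Injective emb := by
    rintro (r | u) (r' | u') h
    · simp only [emb, Sum.elim_inl, Subtype.mk.injEq] at h
      congr 1
      funext ⟨i, hik⟩
      rcases eq_or_ne i j with rfl | hij
      · have e1 := congrFun h i
        have e2 := congrFun h k
        simp only [up, if_true, if_neg hjk.ne', dite_true, pick, i0, i1, iL] at e1 e2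
        have := (r ⟨i, hjk.ne⟩).isLt
        have := (r' ⟨i, hjk.ne⟩).isLt
        split_ifs at e1 e2 with h1 h2 <;> simp only [Fin.ext_iff] at e1 e2 ⊢ <;> omega
      · have := congrFun h i
        simpa [up, hij, hik] using this
    · simp only [emb, Sum.elim_inl, Sum.elim_inr, Subtype.mk.injEq] at h
      have := hup r
      rw [h] at this
      simp [z₀, Ne.symm hlk.1, Ne.symm hlk.2] at this
    · simp only [emb, Sum.elim_inl, Sum.elim_inr, Subtype.mk.injEq] at h
      have := hup r'
      rw [← h] at this
      simp [z₀, Ne.symm hlk.1, Ne.symm hlk.2] at this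
    · rfl
  have hc2 := (Fintype.card_le_of_injective emb hemb).trans hcard
  rw [Fintype.card_sum, Fintype.card_fun, Fintype.card_unit, Fintype.card_fin,
    Fintype.card_subtype_compl, Fintype.card_fin, Fintype.card_subtype_eq] at hc2
  have h3 : (m ^ (t - 1) + 1) * m ≤ m ^ t := (Nat.mul_le_mul_right m hc2).trans hrank
  rw [add_mul, ← pow_succ, Nat.sub_add_cancel (by have := j.isLt; omega)] at h3
  omega

/-- For trivial permutation the image is in one block. -/
theorem exists_bspan (hm : 3 ≤ m) : ∀ (t : ℕ) (A : Fin t → Matrix (Fin m) (Fin m) F)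
    (n : Ten F m t ≃ₗ[F] Ten F m t), Wit 1 A n → (∀ X, n (n X - X) = n X - X) →
    finrank F (LinearMap.range (n.toLinearMap - LinearMap.id)) * m ≤ m ^ t → n ≠ 1 →
    ∃ (j : Fin t) (s : Fin m → F), s ≠ 0 ∧ ∀ X, n X - X ∈ bspan j s := by
  intro t
  induction t with
  | zero =>
    intro A n hn _ _ hne
    exact absurd (LinearEquiv.toLinearMap_injective (ext_pvec fun us => by
      rw [LinearEquiv.coe_coe, hn]
      exact congrArg pvec (Subsingleton.elim _ us))) hne
  | succ t ih =>
    intro A n hn hsq hrank hne
    classical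
    haveI : NeZero m := ⟨by omega⟩
    obtain ⟨k₀, hk₀, hTk⟩ := isT_of_wit (by omega) hn rfl
    have hrank1 : finrank F (LinearMap.range ((toS F m t n).toLinearMap - LinearMap.id)) ≤
        finrank F (Ten F m t) := by
      have hr : LinearMap.range ((toS F m t n).toLinearMap - LinearMap.id) =
          (LinearMap.range (n.toLinearMap - LinearMap.id)).map (slice F m t).toLinearMap := by
        ext Y
        simp only [LinearMap.mem_range, Submodule.mem_map, LinearMap.sub_apply,
          LinearEquiv.coe_coe, LinearMap.id_apply]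
        constructor
        · rintro ⟨Z, rfl⟩
          exact ⟨_, ⟨(slice F m t).symm Z, rfl⟩, by simp [toS_apply]⟩
        · rintro ⟨_, ⟨X, rfl⟩, rfl⟩
          exact ⟨slice F m t X, by simp [toS_apply]⟩
      rw [hr, LinearEquiv.finrank_map_eq, finrank_ten]
      exact Nat.le_of_mul_le_mul_right (hrank.trans_eq (pow_succ m t)) (by omega)
    rcases one_factor hm ⟨_, _, hTk⟩ (fun Y => by
          simpa [toS_apply] using congrArg (slice F m t) (hsq ((slice F m t).symm Y))) hrank1 with ⟨B, hB⟩ | ⟨k, hk⟩
    · -- the first factor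
      obtain ⟨u₀, hu₀⟩ : ∃ u : Fin m → F, B *ᵥ u - u ≠ 0 := by
        by_contra hc
        push Not at hc
        refine hne (LinearEquiv.toLinearMap_injective (ext_pvec fun us => ?_))
        refine (slice F m t).injective ?_
        have h1 := hB (us 0) (pvec fun i => us i.succ)
        rw [sub_eq_zero.1 (hc _), ← slice_pvec, toS_apply, LinearEquiv.symm_apply_apply] at h1
        exact h1
      set s := B *ᵥ u₀ - u₀
      have hline : ∀ u, B *ᵥ u - u ∈ F ∙ s := fun u => by
        by_contra hd
        obtain ⟨χ, h1, h2⟩ := exists_perp hd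
        obtain ⟨ψ, hψ⟩ := exists_dot_one hu₀
        let L : Ten F m t × Ten F m t →ₗ[F]
            LinearMap.range ((toS F m t n).toLinearMap - LinearMap.id) :=
          LinearMap.codRestrict _ ((ins (B *ᵥ u - u)).coprod (ins s)) fun p => by
            refine ⟨ins u p.1 + ins u₀ p.2, ?_⟩
            simp [s, hB, ins_sub]
            abel
        have hL : Function.Injective L := (injective_iff_map_eq_zero _).2 fun p hp => by
          have e : ins (B *ᵥ u - u) p.1 + ins s p.2 = 0 := congrArg Subtype.val hp
          have e1 := congrArg (ev χ) e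
          rw [map_add, ev_ins, ev_ins, h1, h2 s (Submodule.mem_span_singleton_self s), one_smul,
            zero_smul, add_zero, map_zero] at e1
          rw [e1, map_zero, zero_add] at e
          exact Prod.ext e1 (ins_injective hu₀ (e.trans (map_zero _).symm))
        have h3 := (LinearMap.finrank_le_finrank_of_injective hL).trans hrank1
        rw [Module.finrank_prod, finrank_ten] at h3
        have := Nat.pow_pos (n := t) (show 0 < m by omega)
        omega
      refine ⟨0, s, hu₀, fun X => ?_⟩
      have hle : Submodule.map (n.toLinearMap - LinearMap.id) ⊤ ≤ bspan 0 s := by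
        rw [← span_pvec, Submodule.map_span_le]
        rintro _ ⟨us, rfl⟩
        have h1 := hB (us 0) (pvec fun i => us i.succ)
        rw [← slice_pvec, toS_apply, LinearEquiv.symm_apply_apply] at h1
        obtain ⟨c, hc⟩ := Submodule.mem_span_singleton.1 (hline (us 0))
        have h2 : n (pvec us) - pvec us = c • pvec (Fin.cons s fun i => us i.succ) := by
          refine (slice F m t).injective ?_
          rw [map_sub, h1, slice_pvec us, ← ins_sub, ← hc, ins_smul, map_smul, slice_pvec]
          simp
        rw [LinearMap.sub_apply, LinearMap.id_apply, LinearEquiv.coe_coe, h2]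
        exact Submodule.smul_mem _ _ (Submodule.subset_span ⟨_, Fin.cons_zero _ _, rfl⟩)
      exact hle ⟨X, trivial, rfl⟩
    · -- the other factors
      set e : Fin m → F := Pi.single 0 1
      obtain ⟨ψ, hψ⟩ := exists_dot_one (single_ne_zero' (F := F) (0 : Fin m))
      have hkinj : Function.Injective k := (injective_iff_map_eq_zero _).2 fun w hw => by
        refine ins_injective (single_ne_zero' (F := F) (0 : Fin m)) ((toS F m t n).injective ?_)
        rw [hk, hw, map_zero, map_zero]
      set κ := LinearEquiv.ofInjectiveEndo k hkinj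
      have hκ : ∀ w, κ w = k w := fun _ => rfl
      set c := ψ ⬝ᵥ (A 0 *ᵥ e)
      have hkp : ∀ us, k (pvec us) = c • pvec fun i => A i.succ *ᵥ us i := fun us => by
        have h1 := congrArg (ev ψ) ((hk e (pvec us)).symm.trans (hTk e (pvec us)))
        rw [ev_ins, ev_ins, hψ, one_smul, hk₀] at h1
        rw [h1]
        simp
        rfl
      have hnX : ∀ X a, slice F m t (n X - X) a = k (slice F m t X a) - slice F m t X a := fun X a => by
        have h2 : toS F m t n (slice F m t X) = fun a => k (slice F m t X a) := by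
          conv_lhs => rw [eq_sum_ins (F := F) (slice F m t X), map_sum]
          simp only [hk]
          exact (eq_sum_ins _).symm
        rw [map_sub, Pi.sub_apply]
        rw [toS_apply, LinearEquiv.symm_apply_apply] at h2
        rw [h2]
      have hκsq : ∀ w, κ (κ w - w) = κ w - w := fun w => by
        set X := (slice F m t).symm (ins e w)
        have h1 := congrArg (fun Y => slice F m t Y 0) (sub_eq_zero.2 (hsq X))
        rw [map_zero] at h1
        have h3 := hnX (n X - X) 0
        rw [h1] at h3
        have h4 : slice F m t (n X - X) 0 = κ w - w := by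
          rw [hnX]; simp [X, e, hκ]
        rw [h4] at h3
        exact (sub_eq_zero.1 h3.symm)
      have hκne : κ ≠ 1 := fun h => hne (LinearEquiv.ext fun X => by
        have h1 : slice F m t (n X - X) = 0 := funext fun a => by
          rw [hnX, ← hκ, h]; exact sub_self _
        exact sub_eq_zero.1 ((slice F m t).injective (h1.trans (map_zero _).symm)))
      rcases Nat.eq_zero_or_pos t with rfl | ht
      · -- scalar
        exfalso
        have h1 : ∀ w, κ w = c • w := fun w => (hκ w).trans (LinearMap.congr_fun
          (ext_pvec (f := k) (g := c • LinearMap.id) fun us => by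
            rw [hkp, LinearMap.smul_apply, LinearMap.id_apply]
            exact congrArg (c • ·) (congrArg pvec (Subsingleton.elim _ _))) w)
        have hc : c = 1 := by
          have h2 := hκsq (pvec fun i => i.elim0)
          rw [h1, h1, ← sub_eq_zero] at h2
          have hw : pvec (F := F) (m := m) (t := 0) (fun i => i.elim0) ≠ 0 :=
            pvec_ne_zero fun i => i.elim0
          rw [show ∀ w : Ten F m 0, c • (c • w - w) - (c • w - w) = ((c - 1) * (c - 1)) • w from
            fun w => by module] at h2
          exact sub_eq_zero.1 (mul_self_eq_zero.1 ((smul_eq_zero.1 h2).resolve_right hw))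
        exact hκne (LinearEquiv.ext fun w => by rw [h1, hc, one_smul]; rfl)
      obtain ⟨t', rfl⟩ := Nat.exists_eq_succ_of_ne_zero ht.ne'
      have hwit : Wit 1 (Function.update (fun i => A i.succ) 0 (c • A (Fin.succ 0))) κ := fun us => by
        rw [hκ, hkp]
        have e1 : (fun i => Function.update (fun i => A (Fin.succ i)) 0 (c • A (Fin.succ 0)) i *ᵥ
            us ((1 : Equiv.Perm (Fin (t' + 1))) i)) =
            Function.update (fun i => A (Fin.succ i) *ᵥ us i) 0 (c • (A (Fin.succ 0) *ᵥ us 0)) := by
          funext i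
          rcases eq_or_ne i 0 with rfl | hi
          · simp [Matrix.smul_mulVec]
          · simp [Function.update_of_ne hi]
        rw [e1, pvec_update_smul, Function.update_eq_self]
      have hrank' : finrank F (LinearMap.range (κ.toLinearMap - LinearMap.id)) * m ≤ m ^ (t' + 1) := by
        set R := LinearMap.range (κ.toLinearMap - LinearMap.id)
        let L : (Fin m → R) →ₗ[F] LinearMap.range (n.toLinearMap - LinearMap.id) :=
          LinearMap.codRestrict _ ((slice F m (t' + 1)).symm.toLinearMap ∘ₗ
            LinearMap.compLeft R.subtype (Fin m)) fun Y => by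
              choose W hW using fun a => (Y a).2
              refine ⟨(slice F m (t' + 1)).symm W, (slice F m (t' + 1)).injective (funext fun a => ?_)⟩
              have := hnX ((slice F m (t' + 1)).symm W) a
              rw [LinearEquiv.apply_symm_apply, ← hκ] at this
              simp only [LinearMap.sub_apply, LinearEquiv.coe_coe, LinearMap.id_apply,
                LinearMap.comp_apply, LinearEquiv.apply_symm_apply, LinearMap.compLeft_apply]
              rw [this]
              exact hW a
        have hL : Function.Injective L := (injective_iff_map_eq_zero _).2 fun Y hY => by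
          have h1 : (slice F m (t' + 1)).symm (fun a => (Y a : Ten F m (t' + 1))) = 0 :=
            congrArg Subtype.val hY
          rw [LinearEquiv.map_eq_zero_iff] at h1
          exact funext fun a => Subtype.ext (congrFun h1 a)
        have h1 := Nat.mul_le_mul_right m (LinearMap.finrank_le_finrank_of_injective hL)
        rw [Module.finrank_pi_fintype, Finset.sum_const, Finset.card_univ, Fintype.card_fin,
          smul_eq_mul, mul_comm m] at h1
        have h2 := h1.trans hrank
        rw [pow_succ m (t' + 1)] at h2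
        exact Nat.le_of_mul_le_mul_right h2 (by omega)
      obtain ⟨j, s, hs, hj⟩ := ih _ κ hwit hκsq hrank' hκne
      refine ⟨j.succ, s, hs, fun X => ?_⟩
      have h1 : slice F m (t' + 1) (n X - X) =
          ∑ a, ins (Pi.single a (1 : F)) (κ (slice F m (t' + 1) X a) - slice F m (t' + 1) X a) := by
        conv_lhs => rw [eq_sum_ins (F := F) (slice F m (t' + 1) (n X - X))]
        simp only [hnX, hκ]
      rw [← (slice F m (t' + 1)).symm_apply_apply (n X - X), h1, map_sum]
      refine sum_mem fun a _ => ?_
      have hle : (bspan j s).map ((slice F m (t' + 1)).symm.toLinearMap ∘ₗ ins (Pi.single a (1 : F))) ≤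
          bspan j.succ s := by
        rw [bspan, Submodule.map_span_le]
        rintro _ ⟨us, hus, rfl⟩
        rw [LinearMap.comp_apply, LinearEquiv.coe_coe, slice_symm_ins_pvec]
        exact Submodule.subset_span ⟨_, by simpa using hus, rfl⟩
      exact hle ⟨_, hj _, rfl⟩

end Cfsg.Agent.MaxSub.TensorPow
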