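import Cfsg.Agent.MaxSub.TensorPow.Tens

/-!
Determinants: square-zero perturbations of `1`, and the permutations of at least three factors.
-/

set_option autoImplicit false
set_option linter.style.haveILetI false
set_option linter.unusedSectionVars false

namespace Cfsg.Agent.MaxSub.TensorPow

open Module Matrix

variable {F : Type*} [Field F] {m t : ℕ}

lemma det_one_add_eq_one [Finite F] {f : Module.End F (Ten F m t)} (hf : f * f = 0) :
    LinearMap.det (1 + f) = 1 := by
  obtain ⟨p, hpF⟩ := CharP.exists F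
  haveI := hpF
  haveI : Fact p.Prime := ⟨CharP.char_is_prime F p⟩
  haveI : ExpChar F p := ExpChar.prime Fact.out
  have hpow : ∀ k : ℕ, (1 + f) ^ k = 1 + (k : F) • f := fun k => by
    induction k with
    | zero => simp
    | succ k ih =>
      rw [pow_succ, ih, mul_add, mul_one, add_mul, one_mul, smul_mul_assoc, hf, smul_zero, add_zero,
        Nat.cast_succ, add_smul, one_smul, add_assoc]
  have h := congrArg LinearMap.det (hpow p)
  rw [map_pow, CharP.cast_eq_zero, zero_smul, add_zero, map_one] at h
  exact (bijective_frobenius F p).1 (by simpa [frobenius_def] using h)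

lemma perm_mul (σ τ : Equiv.Perm (Fin t)) : perm F m (σ * τ) = perm F m σ * perm F m τ :=
  LinearEquiv.toLinearMap_injective (ext_pvec fun us => by
    simp only [LinearEquiv.coe_coe, LinearEquiv.mul_apply, perm_pvec]
    rfl)

/-- The determinant of a permutation of the factors. -/
noncomputable def permDet (F : Type*) [Field F] (m t : ℕ) : Equiv.Perm (Fin t) →* F where
  toFun σ := LinearMap.det (perm F m σ).toLinearMap
  map_one' := by
    have : (perm F m (1 : Equiv.Perm (Fin t))).toLinearMap = LinearMap.id :=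
      ext_pvec fun us => by simp only [LinearEquiv.coe_coe, perm_pvec, LinearMap.id_apply]; rfl
    rw [this, LinearMap.det_id]
  map_mul' σ τ := by rw [perm_mul]; exact map_mul LinearMap.det _ _

lemma permDet_sq (σ : Equiv.Perm (Fin t)) : permDet F m t σ * permDet F m t σ = 1 := by
  refine Equiv.Perm.swap_induction_on σ (by rw [map_one, mul_one]) fun f x y _ ih => ?_
  rw [map_mul, mul_mul_mul_comm, ih, mul_one, ← map_mul, Equiv.swap_mul_self, map_one]

lemma slice_perm_decompose (σ : Equiv.Perm (Fin t)) (Y : Fin m → Ten F m t) :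
    toS F m t (perm F m (Equiv.Perm.decomposeFin.symm (0, σ))) Y = fun a => perm F m σ (Y a) := by
  funext a z
  rw [toS_apply]
  simp only [slice, LinearEquiv.coe_mk, LinearMap.coe_mk, AddHom.coe_mk, perm,
    LinearEquiv.funCongrLeft_apply, LinearMap.funLeft_apply, LinearEquiv.coe_symm_mk,
    Equiv.arrowCongr_apply, Equiv.coe_refl, Function.comp_apply, Equiv.symm_symm, id_eq]
  have h0 : Equiv.Perm.decomposeFin.symm ((0 : Fin (t + 1)), σ) 0 = 0 := by simp
  rw [h0, Fin.cons_zero]
  congr 1

lemma permDet_decompose (hm : Even m) (σ : Equiv.Perm (Fin t)) :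
    permDet F m (t + 1) (Equiv.Perm.decomposeFin.symm (0, σ)) = 1 := by
  show LinearMap.det (perm F m _).toLinearMap = 1
  rw [← LinearMap.det_conj _ (slice F m t)]
  have : (slice F m t).toLinearMap ∘ₗ (perm F m (Equiv.Perm.decomposeFin.symm (0, σ))).toLinearMap ∘ₗ
      (slice F m t).symm.toLinearMap =
      LinearMap.pi (fun i : Fin m => (perm F m σ).toLinearMap.comp (LinearMap.proj i)) :=
    LinearMap.ext fun Y => slice_perm_decompose σ Y
  rw [this, LinearMap.det_pi, Finset.prod_const, Finset.card_univ, Fintype.card_fin]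
  obtain ⟨k, hk⟩ := hm.two_dvd
  have h2 : LinearMap.det (perm F m σ).toLinearMap * LinearMap.det (perm F m σ).toLinearMap = 1 :=
    permDet_sq σ
  conv_lhs => arg 2; rw [hk]
  rw [pow_mul, pow_two, h2, one_pow]

lemma permDet_eq_one (hm : Even m) (ht : 2 ≤ t) (σ : Equiv.Perm (Fin (t + 1))) :
    permDet F m (t + 1) σ = 1 := by
  have hnz : ∀ a b : Fin t, permDet F m (t + 1) (Equiv.swap a.succ b.succ) = 1 := fun a b => by
    convert permDet_decompose (F := F) hm (Equiv.swap a b) using 2
    ext i
    refine congrArg Fin.val ?_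
    refine Fin.cases ?_ (fun j => ?_) i
    · simp [Equiv.swap_apply_of_ne_of_ne (Fin.succ_ne_zero a).symm (Fin.succ_ne_zero b).symm]
    · rw [Equiv.Perm.decomposeFin_symm_apply_succ, Equiv.swap_self, Equiv.refl_apply]
      rcases eq_or_ne j a with rfl | hja
      · simp
      rcases eq_or_ne j b with rfl | hjb
      · simp
      rw [Equiv.swap_apply_of_ne_of_ne hja hjb,
        Equiv.swap_apply_of_ne_of_ne ((Fin.succ_injective t).ne hja) ((Fin.succ_injective t).ne hjb)]
  have hall : ∀ x y : Fin (t + 1), x ≠ y → permDet F m (t + 1) (Equiv.swap x y) = 1 := by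
    suffices h0 : ∀ y : Fin (t + 1), y ≠ 0 → permDet F m (t + 1) (Equiv.swap 0 y) = 1 by
      intro x y hxy
      rcases eq_or_ne x 0 with rfl | hx
      · exact h0 y hxy.symm
      rcases eq_or_ne y 0 with rfl | hy
      · rw [Equiv.swap_comm]; exact h0 x hxy
      obtain ⟨a, rfl⟩ := Fin.exists_succ_eq.2 hx
      obtain ⟨b, rfl⟩ := Fin.exists_succ_eq.2 hy
      exact hnz a b
    intro y hy
    obtain ⟨b, rfl⟩ := Fin.exists_succ_eq.2 hy
    obtain ⟨a, ha⟩ : ∃ a : Fin t, a ≠ b := by
      rcases eq_or_ne b ⟨0, by omega⟩ with rfl | h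
      · exact ⟨⟨1, by omega⟩, by simp [Fin.ext_iff]⟩
      · exact ⟨_, h.symm⟩
    rw [← Equiv.swap_mul_swap_mul_swap (x := b.succ) (y := a.succ) (z := (0 : Fin (t + 1)))
      ((Fin.succ_injective t).ne ha.symm) (Fin.succ_ne_zero b), map_mul, map_mul, hnz, mul_one,
      permDet_sq]
  refine Equiv.Perm.swap_induction_on σ (map_one _) fun f x y hxy ih => ?_
  rw [map_mul, hall x y hxy, ih, one_mul]

end Cfsg.Agent.MaxSub.TensorPow
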