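import Cfsg.Agent.MaxSub.TensorPow.ParamAlg

/-!
A group containing the transvections of every factor, the permutations of the factors, and a root
element with a non-scalar parameter contains every elementary transvection.
-/

set_option autoImplicit false
set_option linter.unusedSectionVars false
set_option linter.style.haveILetI false
set_option linter.unusedSimpArgs false
set_option linter.deprecated false

namespace Cfsg.Agent.MaxSub.TensorPow

open Module Matrix Cfsg.Agent.MaxSub.ExtField Cfsg.Agent.GeoClasses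

variable {F : Type*} [Field F] [Finite F] {m t : ℕ}

lemma pos_apply (j : Fin t) (M : Matrix (Fin m) (Fin m) F) (x y : Fin t → Fin m) :
    pos j M x y = M (x j) (y j) *
      ∏ i ∈ Finset.univ.erase j, (1 : Matrix (Fin m) (Fin m) F) (x i) (y i) := by
  simp only [pos, pureMat]
  rw [← Finset.mul_prod_erase _ _ (Finset.mem_univ j), Function.update_self]
  congr 1
  exact Finset.prod_congr rfl fun i hi => by rw [Function.update_of_ne (Finset.ne_of_mem_erase hi)]

/-- `pos j` as a linear map. -/
def posL (j : Fin t) :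
    Matrix (Fin m) (Fin m) F →ₗ[F] Matrix (Fin t → Fin m) (Fin t → Fin m) F where
  toFun := pos j
  map_add' M M' := by ext x y; simp [pos_apply, add_mul]
  map_smul' c M := by ext x y; simp [pos_apply, mul_assoc]

lemma pos_mul (j : Fin t) (M M' : Matrix (Fin m) (Fin m) F) : pos j M * pos j M' = pos j (M * M') := by
  rw [pos, pos, pos, pureMat_mul]
  congr 1
  funext i
  rcases eq_or_ne i j with rfl | h
  · simp
  · simp [Function.update_of_ne h]

lemma pureMat_single (x y : Fin t → Fin m) :
    pureMat (fun i => Matrix.single (x i) (y i) (1 : F)) = Matrix.single x y 1 := by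
  ext z w
  simp only [pureMat, Matrix.single_apply, Finset.prod_ite_zero, Finset.prod_const_one]
  exact if_congr ⟨fun h => ⟨funext fun i => (h i (Finset.mem_univ i)).1,
    funext fun i => (h i (Finset.mem_univ i)).2⟩, fun h i _ => ⟨congrFun h.1 i, congrFun h.2 i⟩⟩ rfl rfl

lemma single_eq_vecMulVec (a b : Fin m) :
    Matrix.single a b (1 : F) = vecMulVec (Pi.single a 1) (Pi.single b 1) := by
  ext i j
  simp only [Matrix.single_apply, vecMulVec_apply, Pi.single_apply]
  split_ifs <;> simp_all

/-- The parameters of the root elements. -/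
def params (G : Subgroup ((Fin m → Ten F m t) ≃ₗ[F] (Fin m → Ten F m t))) :
    Submodule F (Matrix (Fin t → Fin m) (Fin t → Fin m) F) where
  carrier := {M | ∀ u φ : Fin m → F, φ ⬝ᵥ u = 0 → Mem G (root u φ (Matrix.toLin' M))}
  zero_mem' := fun u φ _ => mem_zero.congr fun X => by simp [root_apply]
  add_mem' := fun {M N} hM hN u φ h =>
    ((hM u φ h).add (hN u φ h) fun X => by rw [root_root, h, zero_smul]).congr fun X => by
      simp [root_apply, map_add, LinearMap.add_apply, -ev_apply, -Matrix.toLin'_apply]
  smul_mem' := fun c M hM u φ h =>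
    (hM (c • u) φ (by rw [dotProduct_smul, h, smul_zero])).congr fun X => by
      simp [root_apply, ins_smul, map_smul, -ev_apply, -Matrix.toLin'_apply]

variable {G : Subgroup ((Fin m → Ten F m t) ≃ₗ[F] (Fin m → Ten F m t))}

lemma one_mem_params (hG : HasFactor G) : (1 : Matrix (Fin t → Fin m) (Fin t → Fin m) F) ∈ params G :=
  fun u φ h => (hG u φ h).congr fun X => by simp [root_apply]

lemma mul_mem_params (hm : 3 ≤ m) {M N : Matrix (Fin t → Fin m) (Fin t → Fin m) F}
    (hM : M ∈ params G) (hN : N ∈ params G) : M * N ∈ params G := by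
  intro u φ h
  rcases eq_or_ne u 0 with rfl | hu
  · exact mem_zero.congr fun X => by simp [root_apply, ins_zero, -ev_apply]
  obtain ⟨x, hx, hxu⟩ := exists_perp_notin' hm φ hu
  obtain ⟨ψ, hψx, hψu⟩ := exists_perp hxu
  have hψu' := hψu u (Submodule.mem_span_singleton_self u)
  set Y := Matrix.toLin' M
  set Z := Matrix.toLin' N
  refine (mem_comm (hN x φ hx) (hM u ψ hψu') (root_sq hx _) (root_sq hψu' _) (fun X => ?_)
    (fun X => ?_)).congr fun X => ?_
  · simp [root_apply, ev_ins, h, -ev_apply, map_smul, -Matrix.toLin'_apply]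
  · simp [root_apply, ev_ins, h, -ev_apply, map_smul, -Matrix.toLin'_apply]
  · simp [root_apply, ev_ins, h, hψx, Y, Z, Matrix.toLin'_mul, -ev_apply, -Matrix.toLin'_apply]

lemma conj_mem_params (hm : 0 < m) {g : (Fin m → Ten F m t) ≃ₗ[F] (Fin m → Ten F m t)} (hg : g ∈ G)
    {B : Matrix (Fin m) (Fin m) F} {κ : Ten F m t ≃ₗ[F] Ten F m t}
    (hBκ : ∀ u w, g (ins u w) = ins (B *ᵥ u) (κ w))
    {M M' : Matrix (Fin t → Fin m) (Fin t → Fin m) F} (hM : M ∈ params G)
    (hMM : ∀ w, M' *ᵥ κ w = κ (M *ᵥ w)) : M' ∈ params G := by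
  classical
  have hinj : Function.Injective B.mulVec := fun u u' huu => by
    by_contra hne
    haveI : Nonempty (Fin t → Fin m) := ⟨fun _ => ⟨0, hm⟩⟩
    obtain ⟨w, hw⟩ := exists_ne (0 : Ten F m t)
    refine hw (ins_injective (sub_ne_zero.2 hne) (g.injective ?_))
    rw [hBκ, map_zero, map_zero, Matrix.mulVec_sub, huu, sub_self, ins_zero]
  intro u φ h
  obtain ⟨u₀, rfl⟩ := (LinearMap.injective_iff_surjective (f := B.mulVecLin)).1 hinj u
  set φ₀ := φ ᵥ* B
  have h₀ : φ₀ ⬝ᵥ u₀ = 0 := (dotProduct_mulVec φ B u₀).symm.trans h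
  refine ((hM u₀ φ₀ h₀).conj hg).congr fun X => ?_
  obtain ⟨Z, rfl⟩ := g.surjective X
  have hev : ev φ (g Z) = κ (ev φ₀ Z) := by
    conv_lhs => rw [eq_sum_ins (F := F) Z, map_sum, map_sum]
    conv_rhs => rw [eq_sum_ins (F := F) Z, map_sum, map_sum]
    refine Finset.sum_congr rfl fun i _ => ?_
    rw [hBκ, ev_ins, ev_ins, map_smul, dotProduct_mulVec]
  simp only [LinearMap.comp_apply, LinearEquiv.coe_coe, inv_apply_self, root_apply,
    Matrix.toLin'_apply, hev, hBκ, hMM]
  rfl

lemma slice_single (x y : Fin (t + 1) → Fin m) (c : F) (X : Ten F m (t + 1)) :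
    slice F m t (Matrix.single x y c *ᵥ X) =
      root (Pi.single (x 0) 1) (Pi.single (y 0) 1)
        (Matrix.toLin' (Matrix.single (Fin.tail x) (Fin.tail y) c)) (slice F m t X) := by
  classical
  funext a z
  simp only [slice, LinearEquiv.coe_mk, LinearMap.coe_mk, AddHom.coe_mk, root_apply, ev_apply,
    Matrix.toLin'_apply, ins_apply, Pi.smul_apply, Matrix.single_mulVec, Pi.single_apply,
    Finset.sum_apply, smul_eq_mul, ite_mul, one_mul, zero_mul, Finset.sum_ite_eq',
    Finset.mem_univ, if_true, Function.update_apply, Pi.zero_apply, Fin.cons_self_tail]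
  by_cases h : Fin.cons a z = x
  · subst h; simp
  · rw [if_neg h]
    split_ifs with h1 h2 <;> first | rfl | exact absurd (by rw [h1, h2]; exact Fin.cons_self_tail x) h

variable {H : Subgroup (Ten F m (t + 1) ≃ₗ[F] Ten F m (t + 1))}

/-- A non-scalar parameter gives all elementary transvections. -/
theorem elem_of_param (hm : 3 ≤ m) (hB : Base H) (hP : 2 ≤ t → Perms H)
    (hnot : ¬ NoPar (H.map (toS F m t).toMonoidHom)) : Elem H := by
  classical
  set G := H.map (toS F m t).toMonoidHom
  have hG : HasFactor G := hasFactor_toS hB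
  -- a non-scalar parameter
  obtain ⟨M₀, hM₀, hns⟩ : ∃ M ∈ params G, ∀ c : F, M ≠ c • 1 := by
    simp only [NoPar] at hnot
    push Not at hnot
    obtain ⟨u, φ, Y, hu, hφ, h, hY, hns⟩ := hnot
    refine ⟨LinearMap.toMatrix' Y, fun u' φ' h' => ?_, fun c hc => hns c ?_⟩
    · rw [Matrix.toLin'_toMatrix']
      exact mem_root_change hm hG hu hφ h hY h'
    · rw [← Matrix.toLin'_toMatrix' Y, hc, map_smul, Matrix.toLin'_one]
  -- invariance
  have hstep : ∀ (j : Fin t) (u φ : Fin m → F), φ ⬝ᵥ u = 0 →
      ∀ M ∈ params G, dconj (pos j (vecMulVec u φ)) M ∈ params G := by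
    intro j u φ h M hM
    obtain ⟨g, hg, hgx⟩ := hB j.succ u φ h
    set U := pos j (vecMulVec u φ) with hU
    have hUU : U * U = 0 := by
      rw [hU, pos_mul, Matrix.vecMulVec_mul_vecMulVec, h, zero_smul, Matrix.vecMulVec_zero]
      exact (posL (F := F) (m := m) j).map_zero
    let κ : Ten F m t ≃ₗ[F] Ten F m t := LinearEquiv.ofLinear (Matrix.toLin' (1 + U))
      (Matrix.toLin' (1 - U))
      (by rw [← Matrix.toLin'_mul, add_mul, one_mul, mul_sub, mul_one, hUU, sub_zero,
        sub_add_cancel, Matrix.toLin'_one])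
      (by rw [← Matrix.toLin'_mul, sub_mul, one_mul, mul_add, mul_one, hUU, add_zero,
        add_sub_cancel_right, Matrix.toLin'_one])
    have hform : ∀ (v : Fin m → F) w, toS F m t g (ins v w) = ins ((1 : Matrix _ _ F) *ᵥ v) (κ w) := by
      intro v w
      rw [toS_apply, hgx, map_add, LinearEquiv.apply_symm_apply, Matrix.toLin'_apply, slice_pos_succ,
        LinearEquiv.apply_symm_apply, Matrix.one_mulVec]
      funext a
      simp [κ, U, Matrix.add_mulVec, Matrix.mulVec_smul]
    have := sub_mem (conj_mem_params (by omega) (Subgroup.mem_map_of_mem _ hg) hform hM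
      (M' := (1 + U) * M * (1 - U)) fun w => by
        simp only [κ, LinearEquiv.ofLinear_apply, Matrix.toLin'_apply, Matrix.mulVec_mulVec]
        congr 1
        rw [mul_assoc _ (1 - U), sub_mul, one_mul, mul_add, mul_one, hUU, add_zero,
          add_sub_cancel_right, mul_one]) hM
    convert this using 1
    simp only [dconj, add_mul, mul_sub, one_mul, mul_one]
    abel
  have hinv : InvSub (params G) := fun j a b hab M hM => by
    rw [single_eq_vecMulVec]
    exact hstep j _ _ (by simp [hab]) M hM
  rcases (invSub_dichotomy hm t _ hinv (fun M hM N hN => mul_mem_params hm hM hN)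
    (fun h0 => hns 0 (by rw [(Submodule.eq_bot_iff _).1 h0 M₀ hM₀, zero_smul]))).2 with hsc | ⟨j, hj⟩
  · obtain ⟨c, hc⟩ := hsc M₀ hM₀
    exact absurd hc (hns c)
  have hjall : ∀ M, pos j M ∈ params G := fun M => by
    rw [Matrix.matrix_eq_sum_single M, show pos j _ = posL j _ from rfl, map_sum]
    refine sum_mem fun a _ => ?_
    rw [map_sum]
    refine sum_mem fun b _ => ?_
    rw [show Matrix.single a b (M a b) = M a b • Matrix.single a b (1 : F) by
      rw [Matrix.smul_single, smul_eq_mul, mul_one], map_smul]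
    refine Submodule.smul_mem _ _ ?_
    show pos j (Matrix.single a b (1 : F)) ∈ params G
    rcases eq_or_ne a b with rfl | hab
    · obtain ⟨e, hea, -⟩ := exists_third hm a a
      have := mul_mem_params hm (hj a e hea.symm) (hj e a hea)
      rwa [pos_mul, Matrix.single_mul_single_same, one_mul] at this
    · exact hj a b hab
  -- every factor
  have hall : ∀ (i : Fin t) M, pos i M ∈ params G := by
    intro i
    rcases eq_or_ne i j with rfl | hij
    · exact hjall
    intro E
    have ht : 2 ≤ t := by
      by_contra ht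
      exact hij (Fin.ext (by have := i.isLt; have := j.isLt; omega))
    set s := Equiv.swap i j
    obtain ⟨g, hg, A, hA⟩ := hP ht (Equiv.Perm.decomposeFin.symm (0, s))
    obtain ⟨κ, hκ, hform⟩ := isT_of_wit (by omega) hA (by simp)
    have hκ' : ∀ us, κ (pvec us) = pvec fun l => A l.succ *ᵥ us (s l) := fun us => by
      rw [hκ]; simp
    have hdet : IsUnit (A i.succ).det := (Matrix.isUnit_iff_isUnit_det _).1
      (Matrix.mulVec_injective_iff_isUnit.1 (wit_injective (by omega) hA i.succ))
    refine conj_mem_params (by omega) (Subgroup.mem_map_of_mem _ hg) hform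
      (hjall ((A i.succ)⁻¹ * E * A i.succ)) fun w => ?_
    refine LinearMap.congr_fun (ext_pvec (f := Matrix.toLin' (pos i E) ∘ₗ κ.toLinearMap)
      (g := κ.toLinearMap ∘ₗ Matrix.toLin' (pos j ((A i.succ)⁻¹ * E * A i.succ))) fun us => ?_) w
    simp only [LinearMap.comp_apply, LinearEquiv.coe_coe, Matrix.toLin'_apply, hκ', pos_pvec]
    congr 1
    funext l
    rcases eq_or_ne l i with rfl | hl
    · rw [Function.update_self, show s l = j from Equiv.swap_apply_left _ _, Function.update_self,
        Matrix.mulVec_mulVec, Matrix.mulVec_mulVec, ← mul_assoc, ← mul_assoc,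
        Matrix.mul_nonsing_inv _ hdet, one_mul]
    · rw [Function.update_of_ne hl, Function.update_of_ne fun h : s l = j => hl (s.injective
        (h.trans (Equiv.swap_apply_left _ _).symm))]
  -- every matrix unit
  have hunit : ∀ (x y : Fin t → Fin m) (c : F), Matrix.single x y c ∈ params G := by
    intro x y c
    have hS : ∀ S : Finset (Fin t), pureMat (fun i => if i ∈ S then Matrix.single (x i) (y i) (1 : F)
        else 1) ∈ params G := fun S => by
      induction S using Finset.induction_on with
      | empty => simpa [pureMat_one] using one_mem_params hG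
      | insert i S hi ih =>
        have := mul_mem_params hm (hall i (Matrix.single (x i) (y i) 1)) ih
        rw [pos, pureMat_mul] at this
        convert this using 2
        funext l
        rcases eq_or_ne l i with rfl | hl
        · simp [hi]
        · simp [hl]
    have h1 := hS Finset.univ
    simp only [Finset.mem_univ, if_true, pureMat_single] at h1
    have := Submodule.smul_mem _ c h1
    rwa [Matrix.smul_single, smul_eq_mul, mul_one] at this
  -- transport
  intro x y hxy c
  suffices hG' : Mem G (root (Pi.single (x 0) 1) (Pi.single (y 0) 1)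
      (Matrix.toLin' (Matrix.single (Fin.tail x) (Fin.tail y) c))) by
    obtain ⟨_, ⟨g, hg, rfl⟩, hgx⟩ := hG'
    refine ⟨g, hg, fun X => (slice F m t).injective ?_⟩
    have := hgx (slice F m t X)
    rw [MulEquiv.coe_toMonoidHom, toS_apply, LinearEquiv.symm_apply_apply, ← slice_single,
      ← map_add] at this
    rw [this, Matrix.toLin'_apply]
  rcases eq_or_ne (x 0) (y 0) with h0 | h0
  swap
  · exact hunit _ _ c _ _ (by simp [h0])
  have htail : Fin.tail x ≠ Fin.tail y := fun h => hxy (by
    rw [← Fin.cons_self_tail x, ← Fin.cons_self_tail y, h, h0])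
  obtain ⟨a, hax, -⟩ := exists_third hm (x 0) (x 0)
  rw [← h0]
  have hf := hunit (Fin.tail x) (Fin.tail x) c (Pi.single (x 0) 1) (Pi.single a 1) (by simp [hax.symm])
  have hg' := hunit (Fin.tail x) (Fin.tail y) 1 (Pi.single a 1) (Pi.single (x 0) 1) (by simp [hax])
  have hz : ∀ w, Matrix.toLin' (Matrix.single (Fin.tail x) (Fin.tail y) (1 : F))
      (Matrix.toLin' (Matrix.single (Fin.tail x) (Fin.tail x) c) w) = 0 := fun w => by
    rw [← LinearMap.comp_apply, ← Matrix.toLin'_mul,
      Matrix.single_mul_single_of_ne (h := htail.symm), map_zero, LinearMap.zero_apply]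
  have hp : ∀ w, Matrix.toLin' (Matrix.single (Fin.tail x) (Fin.tail x) c)
      (Matrix.toLin' (Matrix.single (Fin.tail x) (Fin.tail y) (1 : F)) w) =
      Matrix.toLin' (Matrix.single (Fin.tail x) (Fin.tail y) c) w := fun w => by
    rw [← LinearMap.comp_apply, ← Matrix.toLin'_mul, Matrix.single_mul_single_same, mul_one]
  refine (mem_comm hg' hf (root_sq (by simp [hax]) _) (root_sq (by simp [hax.symm]) _)
    (fun X => ?_) (fun X => ?_)).congr fun X => ?_
  · simp [root_apply, ev_ins, -ev_apply, -Matrix.toLin'_apply, hz, hax.symm]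
  · simp [root_apply, ev_ins, -ev_apply, -Matrix.toLin'_apply, hz, hax.symm]
  · simp [root_apply, ev_ins, -ev_apply, -Matrix.toLin'_apply, hz, hp, hax.symm]

end Cfsg.Agent.MaxSub.TensorPow
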