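import Cfsg.Agent.MaxSub.TensorPow.Tens

/-!
Non-zero subspaces of the matrices of a tensor power closed under products and under commutation
with the transvections of each factor contain `1`, and either are scalar or contain the
elementary matrices of a whole factor.
-/

set_option autoImplicit false
set_option linter.unusedSectionVars false
set_option linter.style.haveILetI false

namespace Cfsg.Agent.MaxSub.TensorPow

open Module Matrix Cfsg.Agent.GeoClasses
open scoped Kronecker

variable {F : Type*} [Field F] {m t : ℕ}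

lemma exists_third (hm : 3 ≤ m) (a b : Fin m) : ∃ c : Fin m, c ≠ a ∧ c ≠ b := by
  by_contra h
  push Not at h
  have h0 := h ⟨0, by omega⟩
  have h1 := h ⟨1, by omega⟩
  have h2 := h ⟨2, by omega⟩
  simp only [ne_eq, Fin.ext_iff] at h0 h1 h2
  omega

/-- The action of `1 + E` by conjugation, minus the identity. -/
def dconj {κ : Type*} [Fintype κ] (E X : Matrix κ κ F) : Matrix κ κ F := E * X - X * E - E * X * E

section Blocks

variable {τ : Type*} [Fintype τ] [DecidableEq τ]

/-- The blocks. -/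
def blk (X : Matrix (Fin m × τ) (Fin m × τ) F) (c d : Fin m) : Matrix τ τ F :=
  Matrix.of fun i j => X (c, i) (d, j)

lemma ext_blk {X Y : Matrix (Fin m × τ) (Fin m × τ) F} (h : ∀ c d, blk X c d = blk Y c d) :
    X = Y := by
  ext ⟨c, i⟩ ⟨d, j⟩
  exact congrFun (congrFun (h c d) i) j

lemma blk_mul (X Y : Matrix (Fin m × τ) (Fin m × τ) F) (c d : Fin m) :
    blk (X * Y) c d = ∑ e, blk X c e * blk Y e d := by
  ext i j
  simp [blk, Matrix.mul_apply, Matrix.sum_apply, Fintype.sum_prod_type]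

/-- A single block. -/
def kr (p q : Fin m) : Matrix τ τ F →ₗ[F] Matrix (Fin m × τ) (Fin m × τ) F where
  toFun Λ := Matrix.single p q (1 : F) ⊗ₖ Λ
  map_add' _ _ := Matrix.kronecker_add _ _ _
  map_smul' _ _ := Matrix.kronecker_smul _ _ _

lemma blk_kr (p q c d : Fin m) (Λ : Matrix τ τ F) :
    blk (kr p q Λ) c d = if p = c ∧ q = d then Λ else 0 := by
  ext i j
  simp only [blk, kr, LinearMap.coe_mk, AddHom.coe_mk, Matrix.kronecker_apply, Matrix.of_apply,
    Matrix.single_apply]
  split_ifs <;> simp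

lemma kr_mul (p q r s : Fin m) (Λ Μ : Matrix τ τ F) :
    kr p q Λ * kr r s Μ = if q = r then kr p s (Λ * Μ) else 0 := by
  simp only [kr, LinearMap.coe_mk, AddHom.coe_mk, ← Matrix.mul_kronecker_mul]
  split_ifs with h
  · subst h; simp
  · rw [Matrix.single_mul_single_of_ne (h := h), Matrix.zero_kronecker]

lemma blk_dconj (a b : Fin m) (X : Matrix (Fin m × τ) (Fin m × τ) F) (c d : Fin m) :
    blk (dconj (kr a b 1) X) c d =
      (if a = c then blk X b d else 0) - (if b = d then blk X c a else 0) -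
        (if a = c ∧ b = d then blk X b a else 0) := by
  have h1 : ∀ (Y : Matrix (Fin m × τ) (Fin m × τ) F) (c d : Fin m),
      blk (kr a b 1 * Y) c d = if a = c then blk Y b d else 0 := fun Y c d => by
    rw [blk_mul, Finset.sum_eq_single b (fun e _ he => by simp [blk_kr, he.symm]) (by simp), blk_kr]
    simp [ite_mul]
  have h2 : ∀ (Y : Matrix (Fin m × τ) (Fin m × τ) F) (c d : Fin m),
      blk (Y * kr a b 1) c d = if b = d then blk Y c a else 0 := fun Y c d => by
    rw [blk_mul, Finset.sum_eq_single a (fun e _ he => by simp [blk_kr, he.symm]) (by simp), blk_kr]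
    simp [mul_ite]
  have h3 : blk (dconj (kr a b 1) X) c d =
      blk (kr a b 1 * X) c d - blk (X * kr a b 1) c d - blk (kr a b 1 * X * kr a b 1) c d := rfl
  rw [h3, h1, h2, h2, h1]
  by_cases h : a = c <;> by_cases h' : b = d <;> simp [h, h']

variable {J : Submodule F (Matrix (Fin m × τ) (Fin m × τ) F)}

lemma exists_single (hm : 3 ≤ m) (hJ : ∀ a b : Fin m, a ≠ b → ∀ X ∈ J, dconj (kr a b 1) X ∈ J)
    {X : Matrix (Fin m × τ) (Fin m × τ) F} (hX : X ∈ J)
    (hne : ¬ (∀ a b, a ≠ b → blk X a b = 0) ∨ ∃ a b, blk X a a ≠ blk X b b) :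
    ∃ (p q : Fin m) (Λ : Matrix τ τ F), p ≠ q ∧ Λ ≠ 0 ∧ kr p q Λ ∈ J := by
  by_cases hoff : ∀ a b, a ≠ b → blk X a b = 0
  · obtain ⟨a, b, hab⟩ := hne.resolve_left (not_not.2 hoff)
    have hne' : a ≠ b := fun h => hab (by rw [h])
    refine ⟨a, b, blk X b b - blk X a a, hne', sub_ne_zero.2 (Ne.symm hab), ?_⟩
    convert hJ a b hne' X hX using 1
    refine ext_blk fun c d => ?_
    rw [blk_dconj, blk_kr]
    by_cases h : a = c <;> by_cases h' : b = d
    · subst h h'; simp [hoff b a hne'.symm]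
    · subst h; simp [h', hoff b d h']
    · subst h'; simp [h, hoff c a (Ne.symm h)]
    · simp [h, h']
  · push Not at hoff
    obtain ⟨b, a, hba, hΛ⟩ := hoff
    obtain ⟨c, hca, hcb⟩ := exists_third hm a b
    refine ⟨a, b, blk X b a, hba.symm, hΛ, ?_⟩
    convert hJ c b hcb _ (hJ a c hca.symm _ (hJ a b hba.symm X hX)) using 1
    refine ext_blk fun i j => ?_
    simp only [blk_dconj, blk_kr]
    by_cases hai : a = i <;> by_cases haj : a = j <;> by_cases hbj : b = j <;>
      by_cases hci : c = i <;> by_cases hcj : c = j <;> (try subst_vars) <;>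
      simp [*, hba.symm, hca.symm, hcb.symm] at *

lemma kr_mem_all (hm : 3 ≤ m) (hJ : ∀ a b : Fin m, a ≠ b → ∀ X ∈ J, dconj (kr a b 1) X ∈ J)
    {p q : Fin m} {Λ : Matrix τ τ F} (hpq : p ≠ q) (h : kr p q Λ ∈ J) {p' q' : Fin m}
    (hpq' : p' ≠ q') : kr p' q' Λ ∈ J := by
  have row : ∀ {a b c : Fin m}, a ≠ b → c ≠ a → c ≠ b → kr a b Λ ∈ J → kr c b Λ ∈ J := by
    intro a b c hab hca hcb h
    convert hJ c a hca _ h using 1
    refine ext_blk fun i j => ?_
    simp only [blk_dconj, blk_kr]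
    by_cases hci : c = i <;> by_cases haj : a = j <;> by_cases hbj : b = j <;> (try subst_vars) <;>
      simp [*, hab.symm, hca.symm, hcb.symm] at *
  have col : ∀ {a b c : Fin m}, a ≠ b → c ≠ a → c ≠ b → kr a b Λ ∈ J → kr a c Λ ∈ J := by
    intro a b c hab hca hcb h
    convert neg_mem (hJ b c hcb.symm _ h) using 1
    refine ext_blk fun i j => ?_
    rw [show blk (-(dconj (kr b c 1) (kr a b Λ))) i j = -blk (dconj (kr b c 1) (kr a b Λ)) i j from rfl]
    simp only [blk_dconj, blk_kr]
    by_cases hcj : c = j <;> by_cases hai : a = i <;> by_cases hbi : b = i <;> (try subst_vars) <;>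
      simp [*, hab.symm, hca.symm, hcb.symm] at *
  obtain ⟨r, hrp, hrq⟩ : ∃ c : Fin m, c ≠ p ∧ c ≠ q   := exists_third hm p q
  by_cases h1 : p' = q
  · subst h1
    have h2 := col hpq hrp hrq h
    have h3 := row hrp.symm hpq.symm hrq.symm h2
    by_cases h4 : q' = r
    · exact h4 ▸ h3
    · exact col hrq.symm hpq'.symm h4 h3
  · have h2 : kr p' q Λ ∈ J := by
      by_cases h4 : p' = p
      · exact h4 ▸ h
      · exact row hpq h4 h1 h
    by_cases h4 : q' = q
    · exact h4 ▸ h2
    · exact col h1 hpq'.symm h4 h2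

end Blocks

lemma kronecker_sub' {κ τ : Type*} (M : Matrix κ κ F) (X Y : Matrix τ τ F) :
    M ⊗ₖ (X - Y) = M ⊗ₖ X - M ⊗ₖ Y := by
  ext i j
  simp [Matrix.kronecker_apply, mul_sub]

/-- Reindexing by the first factor. -/
def split0 (F : Type*) [Field F] (m t : ℕ) :
    Matrix (Fin (t + 1) → Fin m) (Fin (t + 1) → Fin m) F ≃ₐ[F]
      Matrix (Fin m × (Fin t → Fin m)) (Fin m × (Fin t → Fin m)) F :=
  Matrix.reindexAlgEquiv F F (Fin.consEquiv fun _ => Fin m).symm

lemma split0_pureMat (A : Fin (t + 1) → Matrix (Fin m) (Fin m) F) :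
    split0 F m t (pureMat A) = A 0 ⊗ₖ pureMat fun i => A i.succ := by
  ext ⟨a, x⟩ ⟨b, y⟩
  simp [split0, pureMat, Fin.prod_univ_succ]

lemma split0_pos_zero (M : Matrix (Fin m) (Fin m) F) :
    split0 F m t (pos 0 M) = M ⊗ₖ 1 := by
  rw [pos, split0_pureMat]
  simp [pureMat_one]

lemma split0_pos_succ (j : Fin t) (M : Matrix (Fin m) (Fin m) F) :
    split0 F m t (pos j.succ M) = 1 ⊗ₖ pos j M := by
  rw [pos, split0_pureMat, Function.update_of_ne (Fin.succ_ne_zero j).symm]
  congr 1
  rw [pos]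
  congr 1
  funext i
  rcases eq_or_ne i j with rfl | h
  · simp
  · simp [Function.update_of_ne h, Function.update_of_ne ((Fin.succ_injective t).ne h)]

/-- Invariant under the transvections of every factor. -/
def InvSub (J : Submodule F (Matrix (Fin t → Fin m) (Fin t → Fin m) F)) : Prop :=
  ∀ (j : Fin t) (a b : Fin m), a ≠ b → ∀ X ∈ J, dconj (pos j (Matrix.single a b 1)) X ∈ J

/-- The dichotomy. -/
theorem invSub_dichotomy (hm : 3 ≤ m) : ∀ (t : ℕ)
    (J : Submodule F (Matrix (Fin t → Fin m) (Fin t → Fin m) F)), InvSub J →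
    (∀ X ∈ J, ∀ Y ∈ J, X * Y ∈ J) → J ≠ ⊥ →
    1 ∈ J ∧ ((∀ X ∈ J, ∃ c : F, X = c • 1) ∨
      ∃ j : Fin t, ∀ a b, a ≠ b → pos j (Matrix.single a b (1 : F)) ∈ J) := by
  intro t
  induction t with
  | zero =>
    intro J _ _ hJ0
    have hs : ∀ X : Matrix (Fin 0 → Fin m) (Fin 0 → Fin m) F,
        X = X Fin.elim0 Fin.elim0 • 1 := fun X => by
      ext x y
      rw [Subsingleton.elim x Fin.elim0, Subsingleton.elim y Fin.elim0]
      simp
    obtain ⟨X, hX, hX0⟩ := Submodule.exists_mem_ne_zero_of_ne_bot hJ0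
    refine ⟨?_, Or.inl fun X _ => ⟨_, hs X⟩⟩
    have hc : X Fin.elim0 Fin.elim0 ≠ 0 := fun h0 => hX0 (by rw [hs X, h0, zero_smul])
    set c := X Fin.elim0 Fin.elim0 with hc'
    have h1 := J.smul_mem c⁻¹ hX
    have e : X = c • 1 := hs X
    rwa [e, smul_smul, inv_mul_cancel₀ hc, one_smul] at h1
  | succ t ih =>
    intro J hinv hmul hJ0
    classical
    haveI : NeZero m := ⟨by omega⟩
    set J' := J.map (split0 F m t).toLinearMap with hJ'
    have hR : ∀ X, split0 F m t X ∈ J' ↔ X ∈ J := fun X => by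
      rw [hJ', Submodule.mem_map]
      exact ⟨fun ⟨Y, hY, h⟩ => (split0 F m t).injective h ▸ hY, fun h => ⟨X, h, rfl⟩⟩
    have hmul' : ∀ X ∈ J', ∀ Y ∈ J', X * Y ∈ J' := by
      rintro _ ⟨X, hX, rfl⟩ _ ⟨Y, hY, rfl⟩
      exact ⟨X * Y, hmul X hX Y hY, map_mul (split0 F m t) _ _⟩
    have hd : ∀ (j : Fin (t + 1)) (a b : Fin m), a ≠ b → ∀ X ∈ J',
        dconj (split0 F m t (pos j (Matrix.single a b 1))) X ∈ J' := by
      rintro j a b hab _ ⟨X, hX, rfl⟩
      refine ⟨_, hinv j a b hab X hX, ?_⟩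
      simp [dconj, map_sub, map_mul]
    have hd0 : ∀ a b : Fin m, a ≠ b → ∀ X ∈ J', dconj (kr a b 1) X ∈ J' := fun a b hab X hX => by
      have := hd 0 a b hab X hX
      rwa [split0_pos_zero] at this
    by_cases hcase : ∃ X ∈ J', ¬ (∀ a b, a ≠ b → blk X a b = 0) ∨ ∃ a b, blk X a a ≠ blk X b b
    · obtain ⟨X, hX, hne⟩ := hcase
      obtain ⟨p, q, Λ, hpq, hΛ, hmem⟩ := exists_single hm hd0 hX hne
      set J₁ : Submodule F (Matrix (Fin t → Fin m) (Fin t → Fin m) F) :=
        ⨅ pq : {pq : Fin m × Fin m // pq.1 ≠ pq.2}, J'.comap (kr pq.1.1 pq.1.2) with hJ₁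
      have hm1 : ∀ {Λ}, Λ ∈ J₁ ↔ ∀ a b : Fin m, a ≠ b → kr a b Λ ∈ J' := by
        intro Λ
        simp [hJ₁]
      obtain ⟨h1, -⟩ := ih J₁ (fun j a b hab Μ hΜ => hm1.2 fun c d hcd => by
          have := hd j.succ a b hab _ (hm1.1 hΜ c d hcd)
          rw [split0_pos_succ] at this
          convert this using 1
          simp [dconj, kr, ← Matrix.mul_kronecker_mul, kronecker_sub'])
        (fun Μ hΜ Ν hΝ => hm1.2 fun c d hcd => by
          obtain ⟨e, hec, hed⟩ := exists_third hm c d
          have := hmul' _ (hm1.1 hΜ c e hec.symm) _ (hm1.1 hΝ e d hed)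
          rwa [kr_mul, if_pos rfl] at this)
        (fun h0 => hΛ ((Submodule.eq_bot_iff _).1 h0 Λ
          (hm1.2 fun c d hcd => kr_mem_all hm hd0 hpq hmem hcd)))
      have hoff := hm1.1 h1
      constructor
      · rw [← hR, map_one]
        have hdiag : ∀ a : Fin m, kr a a (1 : Matrix (Fin t → Fin m) (Fin t → Fin m) F) ∈ J' := fun a => by
          obtain ⟨e, hea, -⟩ := exists_third hm a a
          have := hmul' _ (hoff a e hea.symm) _ (hoff e a hea)
          rwa [kr_mul, if_pos rfl, one_mul] at this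
        convert sum_mem (t := Finset.univ) fun a _ => hdiag a using 1
        refine ext_blk fun c d => ?_
        rw [show blk (∑ a, kr a a (1 : Matrix (Fin t → Fin m) (Fin t → Fin m) F)) c d =
          ∑ a, blk (kr a a 1) c d by ext i j; simp [blk, Matrix.sum_apply]]
        simp only [blk_kr]
        rcases eq_or_ne c d with rfl | hcd
        · ext i j; simp [blk, Matrix.one_apply]
        · rw [Finset.sum_eq_zero fun a _ => if_neg fun h => hcd (h.1.symm.trans h.2)]
          ext i j; simp [blk, Matrix.one_apply, hcd]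
      · refine Or.inr ⟨0, fun a b hab => (hR _).1 ?_⟩
        rw [split0_pos_zero]
        exact hoff a b hab
    · push Not at hcase
      let L : Matrix (Fin t → Fin m) (Fin t → Fin m) F →ₗ[F]
          Matrix (Fin m × (Fin t → Fin m)) (Fin m × (Fin t → Fin m)) F :=
        { toFun := fun Λ => (1 : Matrix (Fin m) (Fin m) F) ⊗ₖ Λ
          map_add' := fun _ _ => Matrix.kronecker_add _ _ _
          map_smul' := fun _ _ => Matrix.kronecker_smul _ _ _ }
      set J₂ := J'.comap L
      have hform : ∀ X ∈ J', X = L (blk X 0 0) := fun X hX => by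
        refine ext_blk fun c d => ?_
        obtain ⟨h1, h2⟩ := hcase X hX
        rcases eq_or_ne c d with rfl | hcd
        · rw [h2 c 0]; ext i j; simp [blk, L]
        · rw [h1 c d hcd]; ext i j; simp [blk, L, hcd]
      obtain ⟨X, hX, hX0⟩ := Submodule.exists_mem_ne_zero_of_ne_bot hJ0
      obtain ⟨h1, h2⟩ := ih J₂ (fun j a b hab Μ hΜ => by
          have := hd j.succ a b hab _ hΜ
          rw [split0_pos_succ] at this
          show L _ ∈ J'
          convert this using 1
          simp [dconj, L, ← Matrix.mul_kronecker_mul, kronecker_sub'])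
        (fun Μ hΜ Ν hΝ => by
          show L (Μ * Ν) ∈ J'
          convert hmul' _ hΜ _ hΝ using 1
          simp [L, ← Matrix.mul_kronecker_mul])
        (fun h0 => hX0 ((split0 F m t).injective (by
          have hX' := (hR X).2 hX
          have hmem : blk (split0 F m t X) 0 0 ∈ J₂ := by
            show L _ ∈ J'
            rwa [← hform _ hX']
          rw [hform _ hX', (Submodule.eq_bot_iff _).1 h0 _ hmem, map_zero, map_zero])))
      refine ⟨?_, ?_⟩
      · rw [← hR, map_one]
        convert (show L 1 ∈ J' from h1) using 1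
        simp [L]
      rcases h2 with h2 | ⟨j, hj⟩
      · refine Or.inl fun Y hY => ?_
        have hY' := (hR Y).2 hY
        obtain ⟨c, hc⟩ := h2 (blk (split0 F m t Y) 0 0) (by
          show L _ ∈ J'; rwa [← hform _ hY'])
        refine ⟨c, (split0 F m t).injective ?_⟩
        rw [hform _ hY', hc]
        simp [L]
      · refine Or.inr ⟨j.succ, fun a b hab => (hR _).1 ?_⟩
        rw [split0_pos_succ]
        exact hj a b hab

end Cfsg.Agent.MaxSub.TensorPow
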