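import Cfsg.Agent.MaxSub.TensorPow.Rank

/-!
Small facts on lines `v ⊗ W`, and the choice of a selected pair of lines.
-/

set_option autoImplicit false
set_option linter.style.haveILetI false

namespace Cfsg.Agent.MaxSub.TensorPow

open Module Matrix Cfsg.Agent.MaxSub.ExtField

variable {F : Type*} [Field F] {m : ℕ} {W : Type*} [AddCommGroup W] [Module F W]

/-- The line `v ⊗ W`. -/
abbrev line (W : Type*) [AddCommGroup W] [Module F W] (v : Fin m → F) : Submodule F (Fin m → W) :=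
  LinearMap.range (ins (W := W) v)

lemma line_le_ker {v ψ : Fin m → F} (h : ψ ⬝ᵥ v = 0) {X : Fin m → W} (hX : X ∈ line W v) :
    ev ψ X = 0 := by
  obtain ⟨w, rfl⟩ := hX
  rw [ev_ins, h, zero_smul]

lemma mem_span_of_perp {v s : Fin m → F} (h : ∀ ψ : Fin m → F, ψ ⬝ᵥ v = 0 → ψ ⬝ᵥ s = 0) :
    s ∈ F ∙ v := by
  by_contra hs
  obtain ⟨ψ, h1, h2⟩ := exists_perp hs
  rw [h ψ (h2 v (Submodule.mem_span_singleton_self v))] at h1
  exact zero_ne_one h1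

lemma block_le {S : Submodule F (Fin m → F)} {P : Submodule F (Fin m → W)}
    (hP : ∀ u ∈ S, ∀ w, ins u w ∈ P) : block W S ≤ P := by
  intro Z hZ
  obtain ⟨S', hS'⟩ := Submodule.exists_isCompl S
  set π := Submodule.linearProjOfIsCompl S S' hS' with hπ
  have : Z = ∑ i, ins ((π (Pi.single i 1) : S) : Fin m → F) (Z i) := by
    funext j
    simp only [Finset.sum_apply, ins_apply]
    let φ : Fin m → F := fun i =>
      ((π (Pi.single i 1) : S) : Fin m → F) j - (Pi.single i (1 : F) : Fin m → F) j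
    have hφ : ∀ u ∈ S, φ ⬝ᵥ u = 0 := fun u hu => by
      have h2 : ((π u : S) : Fin m → F) j = u j := by
        rw [hπ]
        exact congrArg (fun z : S => (z : Fin m → F) j)
          (Submodule.linearProjOfIsCompl_apply_left hS' ⟨u, hu⟩)
      conv at h2 => lhs; rw [pi_eq_sum_univ' u]
      simp [φ, dotProduct, sub_mul, Pi.single_apply, Finset.sum_apply] at h2 ⊢
      rw [← h2, sub_eq_zero]
      exact Finset.sum_congr rfl fun i _ => mul_comm _ _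
    have h3 := mem_block.1 hZ φ hφ
    simp [φ, sub_smul, Finset.sum_sub_distrib, Pi.single_apply, sub_eq_zero] at h3
    exact h3.symm
  rw [this]
  exact sum_mem fun i _ => hP _ (π _).2 _

variable {G N : Subgroup ((Fin m → W) ≃ₗ[F] (Fin m → W))}

/-- `x(v₀ ⊗ W)` meets every hyperplane block through `v` only inside `v ⊗ W`. -/
def Selected (x : (Fin m → W) ≃ₗ[F] (Fin m → W)) (v₀ v : Fin m → F) : Prop :=
  ∀ ψ : Fin m → F, ψ ≠ 0 → ψ ⬝ᵥ v = 0 → ∀ w, ev ψ (x (ins v₀ w)) = 0 → x (ins v₀ w) ∈ line W v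

/-- All images of lines of elements outside `N` avoid all hyperplane blocks. -/
def Full (G N : Subgroup ((Fin m → W) ≃ₗ[F] (Fin m → W))) : Prop :=
  ∀ g ∈ G, g ∉ N → ∀ v φ : Fin m → F, v ≠ 0 → φ ≠ 0 → ∀ w, ev φ (g (ins v w)) = 0 → w = 0

/-- Existence of a selected pair. -/
theorem exists_selected [FiniteDimensional F W] (hm : 0 < m) (hne : ¬ G ≤ N)
    (hB2 : ∀ x ∈ G, x ∉ N → ∀ φ : Fin m → F, φ ≠ 0 → ∃ u : Fin m → F, u ≠ 0 ∧ φ ⬝ᵥ u = 0 ∧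
      ∃ t ∈ G, (∀ X, t X = X + root u φ LinearMap.id X) ∧ x⁻¹ * t * x ∉ N) :
    ∃ x ∈ G, x ∉ N ∧ ∃ v₀ v : Fin m → F, v₀ ≠ 0 ∧ v ≠ 0 ∧ Selected x v₀ v ∧
      (Full G N ∨ ∃ w, w ≠ 0 ∧ x (ins v₀ w) ∈ line W v) := by
  classical
  obtain ⟨g₀, hg₀, hg₀N⟩ := Set.not_subset.1 hne
  by_cases hF : Full G N
  · have h1 : (Pi.single ⟨0, hm⟩ 1 : Fin m → F) ≠ 0 := fun h => by
      simpa using congrFun h ⟨0, hm⟩
    exact ⟨g₀, hg₀, hg₀N, _, _, h1, h1, fun ψ hψ _ w hw => by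
      rw [hF g₀ hg₀ hg₀N _ ψ h1 hψ w hw, map_zero, map_zero]; exact zero_mem _, Or.inl hF⟩
  let dim : ((Fin m → W) ≃ₗ[F] (Fin m → W)) → (Fin m → F) → (Fin m → F) → ℕ :=
    fun g v φ => finrank F (LinearMap.ker (ev φ ∘ₗ g.toLinearMap ∘ₗ ins (W := W) v))
  let P : ℕ → Prop := fun d =>
    ∃ g ∈ G, g ∉ N ∧ ∃ v φ : Fin m → F, v ≠ 0 ∧ φ ≠ 0 ∧ dim g v φ = d
  obtain ⟨d₀, hd₀, hd₀pos⟩ : ∃ d, P d ∧ 0 < d := by
    simp only [Full] at hF
    push Not at hF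
    obtain ⟨g, hg, hgN, v, φ, hv, hφ, w, hw, hw0⟩ := hF
    refine ⟨_, ⟨g, hg, hgN, v, φ, hv, hφ, rfl⟩, ?_⟩
    have : (⟨w, hw⟩ : LinearMap.ker (ev φ ∘ₗ g.toLinearMap ∘ₗ ins (W := W) v)) ≠ 0 :=
      fun h => hw0 (congrArg Subtype.val h)
    haveI := nontrivial_of_ne _ _ this
    exact Module.finrank_pos
  have hbound : ∀ d, P d → d ≤ finrank F W := by
    rintro d ⟨g, -, -, v, φ, -, -, rfl⟩
    exact Submodule.finrank_le _
  set d := Nat.findGreatest P (finrank F W)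
  have hd : P d := Nat.findGreatest_spec (hbound _ hd₀) hd₀
  have hmax : ∀ d', P d' → d' ≤ d := fun d' h => Nat.le_findGreatest (hbound _ h) h
  have hdpos : 0 < d := hd₀pos.trans_le (hmax _ hd₀)
  obtain ⟨x, hx, hxN, v₀, φ, hv₀, hφ, hdim⟩ := hd
  obtain ⟨u, hu, hφu, t, htG, ht, htN⟩ := hB2 x hx hxN φ hφ
  set x' := x⁻¹ * t * x with hx'def
  have hfix : ∀ w, ev φ (x (ins v₀ w)) = 0 → x' (ins v₀ w) = ins v₀ w := fun w hw => by
    rw [hx'def, LinearEquiv.mul_apply, LinearEquiv.mul_apply, ht, root_apply, hw, map_zero,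
      map_zero, add_zero]
    exact x.symm_apply_apply _
  have hx'G : x' ∈ G := G.mul_mem (G.mul_mem (G.inv_mem hx) htG) hx
  set k₀ := LinearMap.ker (ev φ ∘ₗ x.toLinearMap ∘ₗ ins (W := W) v₀) with hk₀
  refine ⟨x', hx'G, htN, v₀, v₀, hv₀, hv₀, fun ψ hψ hψv w hw => ?_, Or.inr ?_⟩
  · have hle : k₀ ≤ LinearMap.ker (ev ψ ∘ₗ x'.toLinearMap ∘ₗ ins (W := W) v₀) := fun z hz => by
      simp only [LinearMap.mem_ker, LinearMap.comp_apply, LinearEquiv.coe_coe, hk₀] at hz ⊢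
      rw [hfix z hz, ev_ins, hψv, zero_smul]
    have heq := Submodule.eq_of_le_of_finrank_le hle
      ((hmax _ ⟨x', hx'G, htN, v₀, ψ, hv₀, hψ, rfl⟩).trans hdim.ge)
    have : w ∈ k₀ := by rw [heq]; exact hw
    rw [hfix w this]
    exact ⟨w, rfl⟩
  · obtain ⟨⟨w, hw⟩, hw0⟩ := finrank_pos_iff_exists_ne_zero.1
      (show 0 < finrank F k₀ from hdpos.trans_eq hdim.symm)
    refine ⟨w, fun h => hw0 (Subtype.ext h), ?_⟩
    rw [hfix w hw]
    exact ⟨w, rfl⟩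

/-- The invariant attached to a selected pair. -/
lemma inter {x : (Fin m → W) ≃ₗ[F] (Fin m → W)} {v₀ v : Fin m → F} (hS : Selected x v₀ v)
    {ψ : Fin m → F} (hψ : ψ ≠ 0) (hψv : ψ ⬝ᵥ v = 0) {Y : Fin m → W}
    (hY : Y ∈ line W v ⊔ (line W v₀).map x.toLinearMap) (h0 : ev ψ Y = 0) : Y ∈ line W v := by
  obtain ⟨a, ha, b, hb, rfl⟩ := Submodule.mem_sup.1 hY
  obtain ⟨_, ⟨w, rfl⟩, rfl⟩ := hb
  rw [map_add, line_le_ker hψv ha, zero_add] at h0
  exact add_mem ha (hS ψ hψ hψv w h0)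

lemma mem_span_of_mem {x : (Fin m → W) ≃ₗ[F] (Fin m → W)} {v₀ v : Fin m → F} (hm : 3 ≤ m)
    (hS : Selected x v₀ v) {s : Fin m → F} {w : W} (hw : w ≠ 0)
    (hY : ins s w ∈ line W v ⊔ (line W v₀).map x.toLinearMap) : s ∈ F ∙ v := by
  obtain ⟨ψ, hψ, hψv, hψs⟩ := exists_perp_two hm v s
  obtain ⟨w', hw'⟩ := inter hS hψ hψv hY (by rw [ev_ins, hψs, zero_smul])
  refine mem_span_of_perp fun χ hχ => ?_
  have := congrArg (ev χ) hw'
  rw [ev_ins, ev_ins, hχ, zero_smul] at this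
  exact (smul_eq_zero.1 this.symm).resolve_right hw

end Cfsg.Agent.MaxSub.TensorPow
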