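import Cfsg.Agent.MaxSub.ExtField.Basic

/-!
Groups containing `SL(U) ⊗ 1` acting on `U ⊗ W`, written as `Fin m → W`: root maps, their
parameters, and the fact that, when all parameters are scalar, an element stabilising some
`S ⊗ W` is a tensor product.
-/

set_option autoImplicit false

namespace Cfsg.Agent.MaxSub.TensorPow

open Module Matrix Cfsg.Agent.MaxSub.ExtField

variable {F : Type*} [Field F] {m : ℕ} {W : Type*} [AddCommGroup W] [Module F W]

/-- `w ↦ u ⊗ w`. -/
def ins (u : Fin m → F) : W →ₗ[F] (Fin m → W) :=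
  LinearMap.pi fun i => u i • LinearMap.id

/-- Contraction with a functional on the first factor. -/
def ev (φ : Fin m → F) : (Fin m → W) →ₗ[F] W :=
  ∑ i, φ i • LinearMap.proj i

@[simp] lemma ins_apply (u : Fin m → F) (w : W) (i : Fin m) : ins u w i = u i • w := rfl

@[simp] lemma ev_apply (φ : Fin m → F) (X : Fin m → W) : ev φ X = ∑ i, φ i • X i := by
  simp [ev]

lemma ev_ins (φ u : Fin m → F) (w : W) : ev φ (ins u w) = (φ ⬝ᵥ u) • w := by
  simp [dotProduct, Finset.sum_smul, smul_smul]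

lemma ins_add (u u' : Fin m → F) (w : W) : ins (u + u') w = ins u w + ins u' w := by
  funext i; simp [add_smul]

lemma ins_sub (u u' : Fin m → F) (w : W) : ins (u - u') w = ins u w - ins u' w := by
  funext i; simp [sub_smul]

lemma ins_smul (c : F) (u : Fin m → F) (w : W) : ins (c • u) w = c • ins u w := by
  funext i; simp [smul_smul]

lemma ins_zero (w : W) : ins (0 : Fin m → F) w = 0 := by funext i; simp

lemma ins_sum {ι : Type*} (s : Finset ι) (u : ι → Fin m → F) (w : W) :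
    ins (∑ i ∈ s, u i) w = ∑ i ∈ s, ins (u i) w := by
  funext j; simp [Finset.sum_smul]

lemma eq_sum_ins (X : Fin m → W) : X = ∑ i, ins (Pi.single i (1 : F)) (X i) := by
  funext j; simp [Finset.sum_apply, Pi.single_apply]

lemma ins_injective {u : Fin m → F} (hu : u ≠ 0) : Function.Injective (ins u : W → Fin m → W) := by
  obtain ⟨i, hi⟩ := Function.ne_iff.1 hu
  intro w w' h
  exact smul_right_injective W (show u i ≠ 0 from hi) (congrFun h i)

lemma exists_dot_one {u : Fin m → F} (hu : u ≠ 0) : ∃ φ : Fin m → F, φ ⬝ᵥ u = 1 := by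
  obtain ⟨i, hi⟩ := Function.ne_iff.1 hu
  exact ⟨Pi.single i (u i)⁻¹, by rw [single_dotProduct]; exact inv_mul_cancel₀ hi⟩

lemma exists_perp {S : Submodule F (Fin m → F)} {x : Fin m → F} (hx : x ∉ S) :
    ∃ φ : Fin m → F, φ ⬝ᵥ x = 1 ∧ ∀ u ∈ S, φ ⬝ᵥ u = 0 := by
  classical
  obtain ⟨g, hg, hg0⟩ := Submodule.exists_dual_map_eq_bot_of_notMem hx inferInstance
  have hsum : ∀ z : Fin m → F, (fun i => g (Pi.single i 1)) ⬝ᵥ z = g z := fun z => by
    conv_rhs => rw [pi_eq_sum_univ' z]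
    simp [dotProduct, mul_comm]
  refine ⟨(g x)⁻¹ • fun i => g (Pi.single i 1), by simp [smul_dotProduct, hsum, hg],
    fun u hu => ?_⟩
  rw [smul_dotProduct, hsum,
    (Submodule.eq_bot_iff _).1 hg0 _ ⟨u, hu, rfl⟩, smul_zero]

lemma exists_perp_ne {S : Submodule F (Fin m → F)} (hS : S ≠ ⊤) :
    ∃ φ : Fin m → F, φ ≠ 0 ∧ ∀ u ∈ S, φ ⬝ᵥ u = 0 := by
  obtain ⟨x, -, hx⟩ := SetLike.exists_of_lt (lt_top_iff_ne_top.2 hS)
  obtain ⟨φ, h1, h2⟩ := exists_perp hx
  exact ⟨φ, fun h => by simp [h] at h1, h2⟩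

lemma span_pair_ne_top (hm : 3 ≤ m) (a b : Fin m → F) : Submodule.span F {a, b} ≠ ⊤ := by
  intro h
  classical
  have h5 := finrank_span_finset_le_card (R := F) ({a, b} : Finset (Fin m → F))
  rw [Finset.coe_pair] at h5
  have h6 : Set.finrank F ({a, b} : Set (Fin m → F)) = m := by
    rw [Set.finrank, h, finrank_top, finrank_fin_fun]
  have h7 : ({a, b} : Finset (Fin m → F)).card ≤ 2 := Finset.card_le_two
  omega

/-- A non-zero vector orthogonal to two given ones. -/
lemma exists_perp_two (hm : 3 ≤ m) (a b : Fin m → F) :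
    ∃ φ : Fin m → F, φ ≠ 0 ∧ φ ⬝ᵥ a = 0 ∧ φ ⬝ᵥ b = 0 := by
  obtain ⟨φ, h0, h⟩ := exists_perp_ne (span_pair_ne_top hm a b)
  exact ⟨φ, h0, h a (Submodule.subset_span (by simp)), h b (Submodule.subset_span (by simp))⟩

/-- A vector orthogonal to `φ` off a given line. -/
lemma exists_perp_notin' (hm : 3 ≤ m) (φ : Fin m → F) {v : Fin m → F} (hv : v ≠ 0) :
    ∃ s : Fin m → F, φ ⬝ᵥ s = 0 ∧ s ∉ F ∙ v := by
  obtain ⟨χ, hχ⟩ := exists_dot_one hv
  obtain ⟨s, hs0, hs1, hs2⟩ := exists_perp_two hm φ χ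
  rw [dotProduct_comm] at hs1 hs2
  refine ⟨s, hs1, fun h => hs0 ?_⟩
  obtain ⟨c, rfl⟩ := Submodule.mem_span_singleton.1 h
  rw [dotProduct_smul, hχ, smul_eq_mul, mul_one] at hs2
  rw [hs2, zero_smul]

/-- `x ↦ u ⊗ Y(φ(x))`. -/
abbrev root (u φ : Fin m → F) (Y : W →ₗ[F] W) : (Fin m → W) →ₗ[F] (Fin m → W) :=
  ins u ∘ₗ Y ∘ₗ ev φ

lemma root_apply (u φ : Fin m → F) (Y : W →ₗ[F] W) (X : Fin m → W) :
    root u φ Y X = ins u (Y (ev φ X)) := rfl

lemma root_root (u φ u' φ' : Fin m → F) (Y Y' : W →ₗ[F] W) (X : Fin m → W) :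
    root u φ Y (root u' φ' Y' X) = (φ ⬝ᵥ u') • root u φ' (Y ∘ₗ Y') X := by
  simp [root_apply, ev_ins, -ev_apply]

variable {G : Subgroup ((Fin m → W) ≃ₗ[F] (Fin m → W))}

/-- The commutator of two square-zero elements. -/
lemma mem_comm {f g : (Fin m → W) →ₗ[F] (Fin m → W)} (hf : Mem G f) (hg : Mem G g)
    (hff : ∀ x, f (f x) = 0) (hgg : ∀ x, g (g x) = 0) (hgfg : ∀ x, g (f (g x)) = 0)
    (hfgf : ∀ x, f (g (f x)) = 0) : Mem G (g ∘ₗ f - f ∘ₗ g) := by
  obtain ⟨a, ha, hax⟩ := hf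
  obtain ⟨b, hb, hbx⟩ := hg
  have hai : ∀ x, a⁻¹ x = x - f x := fun x => a.injective (by
    rw [self_inv_apply, hax, map_sub, hff]; abel)
  have hbi : ∀ x, b⁻¹ x = x - g x := fun x => b.injective (by
    rw [self_inv_apply, hbx, map_sub, hgg]; abel)
  refine ⟨b * a * b⁻¹ * a⁻¹, G.mul_mem (G.mul_mem (G.mul_mem hb ha) (G.inv_mem hb)) (G.inv_mem ha),
    fun x => ?_⟩
  simp only [LinearEquiv.mul_apply, hai, hbi, hax, hbx, map_sub, map_add, LinearMap.sub_apply,
    LinearMap.comp_apply, hff, hgg, hgfg, hfgf, map_zero]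
  abel

/-- `G` contains the transvections of the first factor. -/
def HasFactor (G : Subgroup ((Fin m → W) ≃ₗ[F] (Fin m → W))) : Prop :=
  ∀ u φ : Fin m → F, φ ⬝ᵥ u = 0 → Mem G (root u φ LinearMap.id)

/-- All parameters of root elements of `G` are scalars. -/
def NoPar (G : Subgroup ((Fin m → W) ≃ₗ[F] (Fin m → W))) : Prop :=
  ∀ (u φ : Fin m → F) (Y : W →ₗ[F] W), u ≠ 0 → φ ≠ 0 → φ ⬝ᵥ u = 0 → Mem G (root u φ Y) →
    ∃ c : F, Y = c • LinearMap.id

lemma root_sq {u φ : Fin m → F} (h : φ ⬝ᵥ u = 0) (Y : W →ₗ[F] W) (X : Fin m → W) :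
    root u φ Y (root u φ Y X) = 0 := by rw [root_root, h, zero_smul]

/-- A parameter at one pair gives it at every pair. -/
lemma mem_root_change (hm : 3 ≤ m) (hG : HasFactor G) {u φ u' φ' : Fin m → F} {Y : W →ₗ[F] W}
    (hu : u ≠ 0) (hφ : φ ≠ 0) (h : φ ⬝ᵥ u = 0) (hY : Mem G (root u φ Y)) (h' : φ' ⬝ᵥ u' = 0) :
    Mem G (root u' φ' Y) := by
  -- change the vector
  have stepV : ∀ {u φ w : Fin m → F}, φ ⬝ᵥ u = 0 → Mem G (root u φ Y) → φ ⬝ᵥ w = 0 →
      u ∉ F ∙ w → Mem G (root w φ Y) := by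
    intro u φ w h hY hw hne
    obtain ⟨g, hgu, hgw⟩ := exists_perp hne
    have hgw' := hgw w (Submodule.mem_span_singleton_self w)
    refine (mem_comm hY (hG w g hgw') (root_sq h Y) (root_sq hgw' _) (fun x => ?_)
      (fun x => ?_)).congr fun x => ?_
    · simp [root_apply, ev_ins, hw, map_smul, -ev_apply]
    · simp [root_apply, ev_ins, hw, map_smul, -ev_apply]
    · simp [root_apply, ev_ins, hgu, hw, -ev_apply, sub_eq_iff_eq_add]
  -- change the functional
  have stepF : ∀ {u φ ψ : Fin m → F}, φ ⬝ᵥ u = 0 → Mem G (root u φ Y) → ψ ⬝ᵥ u = 0 →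
      φ ∉ F ∙ ψ → Mem G (root u ψ Y) := by
    intro u φ ψ h hY hψ hne
    obtain ⟨x, hx, hx'⟩ := exists_perp hne
    have hψx : ψ ⬝ᵥ x = 0 := by
      rw [dotProduct_comm]; exact hx' ψ (Submodule.mem_span_singleton_self ψ)
    have hφx : φ ⬝ᵥ x = 1 := by rw [dotProduct_comm]; exact hx
    have h1 := mem_comm hY (hG x ψ hψx) (root_sq h Y) (root_sq hψx _)
      (fun y => by simp [root_apply, ev_ins, hψ, map_smul, -ev_apply])
      (fun y => by simp [root_apply, ev_ins, hψ, map_smul, -ev_apply])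
    have h2 : Mem G (-root u ψ Y) := h1.congr fun y => by
      simp [root_apply, ev_ins, hψ, hφx, -ev_apply, root_apply]
    exact (h2.neg fun y => by simp [root_apply, ev_ins, hψ, -ev_apply]).congr fun y => by simp
  have allV : ∀ {u φ w : Fin m → F}, u ≠ 0 → φ ⬝ᵥ u = 0 → Mem G (root u φ Y) → φ ⬝ᵥ w = 0 →
      Mem G (root w φ Y) := by
    intro u φ w hu h hY hw
    rcases eq_or_ne w 0 with rfl | hw0
    · exact mem_zero.congr fun x => by simp [root_apply, ins_zero, -ev_apply]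
    by_cases hne : u ∈ F ∙ w
    · obtain ⟨z, hz, hzne⟩ : ∃ z, φ ⬝ᵥ z = 0 ∧ z ∉ F ∙ w := by
        by_contra hc
        push Not at hc
        obtain ⟨r, hr0, hrw, -⟩ := exists_perp_two hm w w
        obtain ⟨y, hy⟩ := exists_dot_one hr0
        rcases eq_or_ne φ 0 with rfl | hφ0
        · have := hc y (by simp)
          obtain ⟨c, rfl⟩ := Submodule.mem_span_singleton.1 this
          rw [dotProduct_comm, dotProduct_smul, hrw, smul_zero] at hy
          exact zero_ne_one hy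
        obtain ⟨e, he⟩ := exists_dot_one hφ0
        rw [dotProduct_comm] at he
        have hall : ∀ z, z ∈ Submodule.span F ({w, e} : Set (Fin m → F)) := fun z => by
          have h1 := hc (z - (φ ⬝ᵥ z) • e) (by simp [dotProduct_sub, dotProduct_smul, he])
          have h2 : z = (z - (φ ⬝ᵥ z) • e) + (φ ⬝ᵥ z) • e := by abel
          rw [h2]
          refine add_mem (Submodule.span_mono (by simp) h1)
            (Submodule.smul_mem _ _ (Submodule.subset_span (by simp)))
        exact span_pair_ne_top hm w e (eq_top_iff.2 fun z _ => hall z)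
      have hz0 : z ≠ 0 := fun h0 => hzne (h0 ▸ zero_mem _)
      have h1 : Mem G (root z φ Y) := stepV h hY hz (fun hm' => hzne (by
        obtain ⟨c, hc⟩ := Submodule.mem_span_singleton.1 hm'
        obtain ⟨d, hd⟩ := Submodule.mem_span_singleton.1 hne
        have hc0 : c ≠ 0 := fun h0 => hu (by rw [← hc, h0, zero_smul])
        exact Submodule.mem_span_singleton.2 ⟨c⁻¹ * d, by
          rw [mul_smul, hd, ← hc, inv_smul_smul₀ hc0]⟩))
      exact stepV hz h1 hw hzne
    · exact stepV h hY hw hne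
  have allF : ∀ {u φ ψ : Fin m → F}, φ ≠ 0 → φ ⬝ᵥ u = 0 → Mem G (root u φ Y) → ψ ⬝ᵥ u = 0 →
      Mem G (root u ψ Y) := by
    intro u φ ψ hφ h hY hψ
    rcases eq_or_ne ψ 0 with rfl | hψ0
    · exact mem_zero.congr fun x => by simp [root_apply]
    by_cases hne : φ ∈ F ∙ ψ
    · obtain ⟨c, rfl⟩ := Submodule.mem_span_singleton.1 hne
      obtain ⟨χ, hχ, hχne⟩ : ∃ χ, χ ⬝ᵥ u = 0 ∧ χ ∉ F ∙ ψ := by
        by_contra hc
        push Not at hc
        obtain ⟨x, hx0, hxψ, -⟩ := exists_perp_two hm ψ ψ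
        rcases eq_or_ne u 0 with rfl | hu0
        · obtain ⟨χ, hχ⟩ := exists_dot_one hx0
          obtain ⟨d, rfl⟩ := Submodule.mem_span_singleton.1 (hc χ (by simp))
          rw [smul_dotProduct, dotProduct_comm, hxψ, smul_zero] at hχ
          exact zero_ne_one hχ
        obtain ⟨e, he⟩ := exists_dot_one hu0
        have hall : ∀ z, z ∈ Submodule.span F ({ψ, e} : Set (Fin m → F)) := fun z => by
          have h1 := hc (z - (z ⬝ᵥ u) • e) (by simp [sub_dotProduct, smul_dotProduct, he])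
          have h2 : z = (z - (z ⬝ᵥ u) • e) + (z ⬝ᵥ u) • e := by abel
          rw [h2]
          refine add_mem (Submodule.span_mono (by simp) h1)
            (Submodule.smul_mem _ _ (Submodule.subset_span (by simp)))
        exact span_pair_ne_top hm ψ e (eq_top_iff.2 fun z _ => hall z)
      have h1 : Mem G (root u χ Y) := stepF h hY hχ (fun hm' => hχne (by
        obtain ⟨d, hd⟩ := Submodule.mem_span_singleton.1 hm'
        have hd0 : d ≠ 0 := fun h0 => hφ (by rw [← hd, h0, zero_smul])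
        exact Submodule.mem_span_singleton.2 ⟨d⁻¹ * c, by
          rw [mul_smul, ← hd, inv_smul_smul₀ hd0]⟩))
      exact stepF hχ h1 hψ hχne
    · exact stepF h hY hψ hne
  obtain ⟨w, hw0, hw, hw'⟩ := exists_perp_two hm φ φ'
  rw [dotProduct_comm] at hw hw'
  have h1 := allV hu h hY hw
  have h2 := allF hφ hw h1 hw'
  exact allV hw0 hw' h2 h'

lemma mem_root_smul (hG : HasFactor G) (c : F) {u φ : Fin m → F} (h : φ ⬝ᵥ u = 0) :
    Mem G (root u φ (c • LinearMap.id)) :=
  (hG (c • u) φ (by rw [dotProduct_smul, h, smul_zero])).congr fun X => by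
    simp [root_apply, ins_smul, -ev_apply]

/-- Extraction from an element with image in one block. -/
lemma scalar_of_left (hm : 3 ≤ m) (hG : HasFactor G) (hP : NoPar G) {v : Fin m → F} (hv : v ≠ 0)
    {Γ : (Fin m → W) →ₗ[F] W} (hΓ : ∀ w, Γ (ins v w) = 0) (hmem : Mem G (ins v ∘ₗ Γ))
    (x : Fin m → F) : ∃ c : F, ∀ w, Γ (ins x w) = c • w := by
  obtain ⟨g, hg0, hgv, hgx⟩ := exists_perp_two hm v x
  have h1 := mem_comm hmem (hG x g hgx) (fun y => by simp [hΓ]) (root_sq hgx _)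
    (fun y => by simp [root_apply, ev_ins, hgv, -ev_apply])
    (fun y => by simp [root_apply, ev_ins, hgv, -ev_apply])
  have h2 : Mem G (-root v g (Γ ∘ₗ ins x)) := h1.congr fun y => by
    simp [root_apply, ev_ins, hgv, -ev_apply]
  have h3 : Mem G (root v g (Γ ∘ₗ ins x)) :=
    (h2.neg fun y => by simp [root_apply, ev_ins, hgv, -ev_apply]).congr fun y => by simp
  obtain ⟨c, hc⟩ := hP v g _ hv hg0 hgv h3
  exact ⟨c, fun w => LinearMap.congr_fun hc w⟩

/-- Extraction from an element factoring through one contraction. -/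
lemma scalar_of_right (hm : 3 ≤ m) (hG : HasFactor G) (hP : NoPar G) {g : Fin m → F} (hg : g ≠ 0)
    {Ψ : W →ₗ[F] (Fin m → W)} (hΨ : ∀ w, ev g (Ψ w) = 0) (hmem : Mem G (Ψ ∘ₗ ev g))
    (μ : Fin m → F) : ∃ c : F, ∀ w, ev μ (Ψ w) = c • w := by
  obtain ⟨y, hy0, hyg, hyμ⟩ := exists_perp_two hm g μ
  rw [dotProduct_comm] at hyg hyμ
  have h1 := mem_comm hmem (hG y μ hyμ) (fun x => by simp [hΨ, -ev_apply]) (root_sq hyμ _)
    (fun x => by simp [root_apply, ev_ins, hyg, -ev_apply])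
    (fun x => by simp [root_apply, ev_ins, hyg, -ev_apply])
  have h2 : Mem G (root y g (ev μ ∘ₗ Ψ)) := h1.congr fun x => by
    simp [root_apply, ev_ins, hyg, -ev_apply]
  obtain ⟨c, hc⟩ := hP y g _ hy0 hg hyg h2
  exact ⟨c, fun w => LinearMap.congr_fun hc w⟩

/-- The subspace `S ⊗ W`. -/
def block (W : Type*) [AddCommGroup W] [Module F W] (S : Submodule F (Fin m → F)) :
    Submodule F (Fin m → W) :=
  ⨅ φ : {φ : Fin m → F // ∀ u ∈ S, φ ⬝ᵥ u = 0}, LinearMap.ker (ev φ.1)

lemma mem_block {S : Submodule F (Fin m → F)} {X : Fin m → W} :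
    X ∈ block W S ↔ ∀ φ : Fin m → F, (∀ u ∈ S, φ ⬝ᵥ u = 0) → ev φ X = 0 := by
  simp [block, -ev_apply]

lemma ins_mem_block {S : Submodule F (Fin m → F)} {u : Fin m → F} (hu : u ∈ S) (w : W) :
    ins u w ∈ block W S :=
  mem_block.2 fun φ hφ => by rw [ev_ins, hφ u hu, zero_smul]

lemma decomp_one {g x₀ : Fin m → F} (hx : g ⬝ᵥ x₀ = 1) (X : Fin m → W) :
    X = (∑ i, ins (Pi.single i 1 - g i • x₀) (X i)) + ins x₀ (ev g X) := by
  conv_lhs => rw [eq_sum_ins (F := F) X]
  simp [ins_sub, ins_smul, Finset.sum_sub_distrib]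

/-- Extraction from an element of the radical of the stabiliser of `S ⊗ W`. -/
lemma scalar_of_radical (hm : 3 ≤ m) (hG : HasFactor G) (hP : NoPar G)
    {S : Submodule F (Fin m → F)} (hS : S ≠ ⊤) {Θ : (Fin m → W) →ₗ[F] (Fin m → W)}
    (hmem : Mem G Θ) (hkill : ∀ u ∈ S, ∀ w, Θ (ins u w) = 0)
    (him : ∀ X, Θ X ∈ block W S) (x μ : Fin m → F) :
    ∃ c : F, ∀ w, ev μ (Θ (ins x w)) = c • w := by
  by_cases hx : S ⊔ F ∙ x = ⊤
  · obtain ⟨g, hg0, hg⟩ := exists_perp_ne hS
    have hgx : g ⬝ᵥ x ≠ 0 := fun h0 => hg0 (by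
      funext i
      have hi : Pi.single i (1 : F) ∈ S ⊔ F ∙ x := hx ▸ Submodule.mem_top
      obtain ⟨a, ha, b, hb, hab⟩ := Submodule.mem_sup.1 hi
      obtain ⟨c, rfl⟩ := Submodule.mem_span_singleton.1 hb
      have h1 : g ⬝ᵥ Pi.single i (1 : F) = 0 := by
        rw [← hab, dotProduct_add, dotProduct_smul, h0, hg a ha, smul_zero, add_zero]
      simpa using h1)
    set x₀ := (g ⬝ᵥ x)⁻¹ • x with hx₀
    have hgx₀ : g ⬝ᵥ x₀ = 1 := by simp [hx₀, dotProduct_smul, hgx]
    have hker : ∀ u : Fin m → F, g ⬝ᵥ u = 0 → u ∈ S := fun u hu => by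
      obtain ⟨a, ha, b, hb, hab⟩ := Submodule.mem_sup.1 (show u ∈ S ⊔ F ∙ x from hx ▸ Submodule.mem_top)
      obtain ⟨c, rfl⟩ := Submodule.mem_span_singleton.1 hb
      rw [← hab, dotProduct_add, hg a ha, dotProduct_smul, zero_add, smul_eq_mul, mul_eq_zero] at hu
      rcases hu with hc | h
      · rwa [← hab, hc, zero_smul, add_zero]
      · exact absurd h hgx
    have hΘ : ∀ X, Θ X = Θ (ins x₀ (ev g X)) := fun X => by
      conv_lhs => rw [decomp_one hgx₀ X, map_add, map_sum]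
      rw [Finset.sum_eq_zero fun i _ => hkill _ (hker _ (by
        simp [dotProduct_sub, dotProduct_smul, hgx₀])) _, zero_add]
    obtain ⟨c, hc⟩ := scalar_of_right hm hG hP hg0 (Ψ := Θ ∘ₗ ins x₀)
      (fun w => mem_block.1 (him _) g hg) (hmem.congr fun X => hΘ X) μ
    refine ⟨(g ⬝ᵥ x) * c, fun w => ?_⟩
    rw [mul_smul, ← hc w, ← map_smul]
    simp [hx₀, ins_smul, map_smul, smul_smul, hgx, -ev_apply]
  · obtain ⟨g, hg0, hg⟩ := exists_perp_ne hx
    have hgS : ∀ u ∈ S, g ⬝ᵥ u = 0 := fun u hu => hg u (Submodule.mem_sup_left hu)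
    have hgx : g ⬝ᵥ x = 0 := hg x (Submodule.mem_sup_right (Submodule.mem_span_singleton_self x))
    have hΘΘ : ∀ X, Θ (Θ X) = 0 := fun X => by
      have h1 : ∀ Z ∈ block W S, Θ Z = 0 := fun Z hZ => by
        obtain ⟨S', hS'⟩ := Submodule.exists_isCompl S
        set π := Submodule.linearProjOfIsCompl S S' hS' with hπ
        have : Z = ∑ i, ins ((π (Pi.single i 1) : S) : Fin m → F) (Z i) := by
          funext j
          simp only [Finset.sum_apply, ins_apply]
          let φ : Fin m → F := fun i => ((π (Pi.single i 1) : S) : Fin m → F) j - (Pi.single i (1 : F) : Fin m → F) j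
          have hφ : ∀ u ∈ S, φ ⬝ᵥ u = 0 := fun u hu => by
            have h2 : ((π u : S) : Fin m → F) j = u j := by
              rw [hπ]
              exact congrArg (fun z : S => (z : Fin m → F) j)
                (Submodule.linearProjOfIsCompl_apply_left hS' ⟨u, hu⟩)
            conv at h2 => lhs; rw [pi_eq_sum_univ' u]
            simp [φ, dotProduct, sub_mul, Pi.single_apply, Finset.sum_apply] at h2 ⊢
            rw [← h2, sub_eq_zero]
            exact Finset.sum_congr rfl fun i _ => mul_comm _ _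
          have h3 := mem_block.1 hZ φ hφ
          simp [φ, sub_smul, Finset.sum_sub_distrib, Pi.single_apply, sub_eq_zero] at h3
          exact h3.symm
        rw [this, map_sum]
        exact Finset.sum_eq_zero fun i _ => hkill _ (π _).2 _
      exact h1 _ (him X)
    have h1 := mem_comm hmem (hG x g hgx) hΘΘ (root_sq hgx _)
      (fun y => by simp [root_apply, mem_block.1 (him _) g hgS, -ev_apply])
      (fun y => by simp [root_apply, mem_block.1 (him _) g hgS, -ev_apply])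
    have h2 : Mem G (-((Θ ∘ₗ ins x) ∘ₗ ev g)) := h1.congr fun y => by
      simp [root_apply, mem_block.1 (him _) g hgS, -ev_apply]
    have h3 : Mem G ((Θ ∘ₗ ins x) ∘ₗ ev g) :=
      (h2.neg fun y => by simp [mem_block.1 (him _) g hgS, -ev_apply]).congr fun y => by simp
    exact scalar_of_right hm hG hP hg0 (fun w => mem_block.1 (him _) g hgS) h3 μ

/-- A tensor product of maps of the two factors. -/
def IsT (h : (Fin m → W) ≃ₗ[F] (Fin m → W)) : Prop :=
  ∃ (B : Matrix (Fin m) (Fin m) F) (k : W ≃ₗ[F] W), ∀ u w, h (ins u w) = ins (B *ᵥ u) (k w)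

lemma isT_of_forall {h : (Fin m → W) ≃ₗ[F] (Fin m → W)} [Nontrivial W] (k : W ≃ₗ[F] W)
    (hh : ∀ u : Fin m → F, ∀ μ : Fin m → F, ∃ c : F, ∀ w, ev μ (h (ins u w)) = c • k w) : IsT h := by
  classical
  choose c hc using fun u i => hh u (Pi.single i 1)
  refine ⟨Matrix.of fun i j => c (Pi.single j 1) i, k, fun u w => funext fun i => ?_⟩
  have h1 : ∀ j, h (ins (Pi.single j (1 : F)) w) i = c (Pi.single j 1) i • k w := fun j => by
    simpa [Pi.single_apply] using hc (Pi.single j 1) i w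
  conv_lhs => rw [pi_eq_sum_univ' u, ins_sum, map_sum]
  simp only [ins_smul, map_smul, Finset.sum_apply, Pi.smul_apply, h1, ins_apply]
  simp [Matrix.mulVec, dotProduct, Finset.sum_smul, smul_smul, mul_comm]

variable [FiniteDimensional F W] [Nontrivial W]
  {G' : Subgroup ((Fin m → W) ≃ₗ[F] (Fin m → W))}

omit [FiniteDimensional F W] [Nontrivial W] in
lemma mem_conj_of_conj {f : (Fin m → W) →ₗ[F] (Fin m → W)} (hf : Mem G f)
    {h : (Fin m → W) ≃ₗ[F] (Fin m → W)} (hh : ∀ g ∈ G, h * g * h⁻¹ ∈ G') :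
    Mem G' (h.toLinearMap ∘ₗ f ∘ₗ h.symm.toLinearMap) := by
  obtain ⟨g, hg, hgx⟩ := hf
  refine ⟨_, hh g hg, fun x => ?_⟩
  simp [LinearEquiv.mul_apply, hgx, LinearEquiv.apply_symm_apply]

/-- An element conjugating `G` into `G'` and stabilising some `S ⊗ W` is a tensor product. -/
theorem isT_of_stab (hm : 3 ≤ m) (hG : HasFactor G) (hG' : HasFactor G') (hP : NoPar G')
    {h : (Fin m → W) ≃ₗ[F] (Fin m → W)} (hh : ∀ g ∈ G, h * g * h⁻¹ ∈ G')
    {S : Submodule F (Fin m → F)} (hS0 : S ≠ ⊥) (hS : S ≠ ⊤)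
    (hstab : ∀ X ∈ block W S, h X ∈ block W S) : IsT h := by
  have hmap : (block W S).map h.toLinearMap = block W S := Submodule.eq_of_le_of_finrank_le
    (by rintro _ ⟨X, hX, rfl⟩; exact hstab X hX) (by rw [LinearEquiv.finrank_map_eq])
  have hstab' : ∀ X ∈ block W S, h.symm X ∈ block W S := fun X hX => by
    rw [← hmap] at hX
    obtain ⟨Y, hY, rfl⟩ := hX
    show h.symm (h Y) ∈ _
    rwa [LinearEquiv.symm_apply_apply]
  -- scalar products
  have hprod : ∀ u ∈ S, ∀ f : Fin m → F, (∀ s ∈ S, f ⬝ᵥ s = 0) → ∀ x μ : Fin m → F, ∃ c : F,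
      ∀ w, ev μ (h (ins u (ev f (h.symm (ins x w))))) = c • w := by
    intro u hu f hf x μ
    refine scalar_of_radical hm hG' hP hS (mem_conj_of_conj (hG u f (hf u hu)) hh)
      (fun s hs w => ?_) (fun X => ?_) x μ
    · simp [root_apply, mem_block.1 (hstab' _ (ins_mem_block hs w)) f hf, -ev_apply]
    · exact hstab _ (ins_mem_block hu _)
  obtain ⟨f₀, hf₀0, hf₀⟩ := exists_perp_ne hS
  obtain ⟨u₀, hu₀, hu₀0⟩ := Submodule.exists_mem_ne_zero_of_ne_bot hS0
  obtain ⟨w₁, hw₁⟩ := exists_ne (0 : W)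
  obtain ⟨μ₀, hμ₀⟩ : ∃ μ₀ : Fin m → F, ev μ₀ (h (ins u₀ w₁)) ≠ 0 := by
    by_contra hc
    push Not at hc
    refine hw₁ (ins_injective hu₀0 (h.injective ?_))
    rw [map_zero, map_zero]
    funext i
    simpa [Pi.single_apply] using hc (Pi.single i 1)
  -- the part on `W`
  obtain ⟨x₀, c₀, hc₀, hb₀⟩ : ∃ (x₀ : Fin m → F) (c₀ : F), c₀ ≠ 0 ∧
      ∀ w, ev μ₀ (h (ins u₀ (ev f₀ (h.symm (ins x₀ w))))) = c₀ • w := by
    by_contra hc
    push Not at hc
    obtain ⟨y, hy⟩ := exists_dot_one hf₀0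
    rw [dotProduct_comm] at hy
    refine hμ₀ ?_
    have hw : w₁ = ev f₀ (h.symm (h (ins y w₁))) := by
      rw [LinearEquiv.symm_apply_apply, ev_ins, hy, one_smul]
    rw [hw, eq_sum_ins (F := F) (h (ins y w₁))]
    simp only [map_sum]
    refine Finset.sum_eq_zero fun i _ => ?_
    obtain ⟨c, hc'⟩ := hprod u₀ hu₀ f₀ hf₀ (Pi.single i 1) μ₀
    rcases eq_or_ne c 0 with rfl | hc0
    · rw [hc', zero_smul]
    · obtain ⟨w, hw⟩ := hc (Pi.single i 1) c hc0
      exact absurd (hc' w) hw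
  set β₀ : W →ₗ[F] W := ev μ₀ ∘ₗ h.toLinearMap ∘ₗ ins u₀ with hβ₀
  have hβsurj : Function.Surjective β₀ := fun w =>
    ⟨ev f₀ (h.symm (ins x₀ (c₀⁻¹ • w))), by
      show ev μ₀ (h (ins u₀ _)) = w
      rw [hb₀, smul_inv_smul₀ hc₀]⟩
  let k : W ≃ₗ[F] W := LinearEquiv.ofBijective β₀
    ⟨LinearMap.injective_iff_surjective.2 hβsurj, hβsurj⟩
  have hk : ∀ w, k w = ev μ₀ (h (ins u₀ w)) := fun w => rfl
  have hκ : ∀ f : Fin m → F, (∀ s ∈ S, f ⬝ᵥ s = 0) → ∀ x, ∃ c : F,
      ∀ w, ev f (h.symm (ins x w)) = c • k.symm w := fun f hf x => by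
    obtain ⟨c, hc⟩ := hprod u₀ hu₀ f hf x μ₀
    exact ⟨c, fun w => k.injective (by rw [map_smul, k.apply_symm_apply, hk, hc])⟩
  by_cases hbig : ∀ u : Fin m → F, S ⊔ F ∙ u ≠ ⊤
  · -- small `S`: every vector is killed by a functional vanishing on `S`
    refine isT_of_forall k fun u μ => ?_
    obtain ⟨f, hf0, hf⟩ := exists_perp_ne (hbig u)
    have hfS : ∀ s ∈ S, f ⬝ᵥ s = 0 := fun s hs => hf s (Submodule.mem_sup_left hs)
    have hfu : f ⬝ᵥ u = 0 := hf u (Submodule.mem_sup_right (Submodule.mem_span_singleton_self u))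
    choose c hc using hκ f hfS
    set f' : Fin m → F := fun i => c (Pi.single i 1) with hf'
    have hev : ∀ X, ev f (h.symm X) = k.symm (ev f' X) := fun X => by
      conv_lhs => rw [eq_sum_ins (F := F) X]
      simp [map_sum, hc, hf', -ev_apply]
      simp
    have hf'0 : f' ≠ 0 := fun h0 => by
      obtain ⟨y, hy⟩ := exists_dot_one hf0
      have h1 := hev (h (ins y w₁))
      rw [LinearEquiv.symm_apply_apply, ev_ins, dotProduct_comm, hy, one_smul, h0] at h1
      exact hw₁ (h1.trans (by simp))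
    obtain ⟨d, hd⟩ := scalar_of_right hm hG' hP hf'0
      (Ψ := h.toLinearMap ∘ₗ ins u ∘ₗ k.symm.toLinearMap) (fun w => k.symm.injective (by
        rw [← hev, map_zero]
        simp [LinearEquiv.symm_apply_apply, ev_ins, hfu, -ev_apply]))
      ((mem_conj_of_conj (hG u f hfu) hh).congr fun X => by
        simp [root_apply, hev, -ev_apply]) μ
    exact ⟨d, fun w => by simpa [-ev_apply] using hd (k w)⟩
  · -- `S` a hyperplane: use the inverse
    push Not at hbig
    obtain ⟨e, he⟩ := hbig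
    have hS2 : ∀ f : Fin m → F, ∃ u ∈ S, u ≠ 0 ∧ f ⬝ᵥ u = 0 := fun f => by
      have hsup := Submodule.finrank_add_le_finrank_add_finrank S (F ∙ e)
      rw [he, finrank_top, finrank_fin_fun] at hsup
      have he1 : finrank F (F ∙ e) ≤ 1 := by
        rcases eq_or_ne e 0 with rfl | h0
        · rw [Submodule.span_zero_singleton, finrank_bot]; omega
        · rw [finrank_span_singleton h0]
      obtain ⟨u, hu, hu0⟩ := Submodule.exists_mem_ne_zero_of_ne_bot
        (LinearMap.ker_ne_bot_of_finrank_lt (f := (dotProductBilin F F f).comp S.subtype)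
          (by rw [Module.finrank_self]; omega))
      exact ⟨u, u.2, fun h0 => hu0 (Subtype.ext h0), hu⟩
    have hB : ∀ u ∈ S, ∃ b : Fin m → F, ∀ w, h (ins u w) = ins b (k w) := by
      intro u hu
      choose c hc using fun i => hprod u hu f₀ hf₀ x₀ (Pi.single i 1)
      obtain ⟨d, hd⟩ := hκ f₀ hf₀ x₀
      have hd0 : d ≠ 0 := fun h0 => by
        have h1 := hb₀ w₁
        rw [hd, h0, zero_smul] at h1
        simp only [map_zero] at h1
        exact hw₁ ((smul_eq_zero.1 h1.symm).resolve_left hc₀)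
      refine ⟨fun i => c i / d, fun w => funext fun i => ?_⟩
      have h1 := hc i (k w)
      rw [hd, k.symm_apply_apply, map_smul, map_smul, map_smul] at h1
      have h2 : h (ins u w) i = d⁻¹ • c i • k w := by
        rw [← h1, smul_smul, inv_mul_cancel₀ hd0, one_smul]
        simp [Pi.single_apply]
      rw [h2, smul_smul, ins_apply, div_eq_inv_mul]
    have hinv : IsT h.symm := isT_of_forall k.symm fun x f => by
      obtain ⟨u, hu, hu0, hfu⟩ := hS2 f
      obtain ⟨b, hb⟩ := hB u hu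
      have hb0 : b ≠ 0 := fun h0 => hw₁ (ins_injective hu0 (h.injective (by
        rw [hb, h0, ins_zero, map_zero, map_zero])))
      obtain ⟨c, hc⟩ := scalar_of_left hm hG' hP hb0
        (Γ := k.toLinearMap ∘ₗ ev f ∘ₗ h.symm.toLinearMap) (fun w => by
          have : h.symm (ins b w) = ins u (k.symm w) := h.injective (by
            rw [LinearEquiv.apply_symm_apply, hb, k.apply_symm_apply])
          simp [this, ev_ins, hfu, -ev_apply])
        ((mem_conj_of_conj (hG u f hfu) hh).congr fun X => by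
          simp [root_apply, hb, -ev_apply]) x
      exact ⟨c, fun w => k.injective (by simpa [map_smul, -ev_apply] using hc w)⟩
    obtain ⟨C, j, hC⟩ := hinv
    have hCinj : Function.Injective (C.mulVec) := fun u u' huu => by
      by_contra hne
      refine hw₁ (ins_injective (sub_ne_zero.2 hne) (h.symm.injective ?_))
      rw [hC, map_zero, map_zero, Matrix.mulVec_sub, huu, sub_self, ins_zero]
    have hU : IsUnit C := Matrix.mulVec_injective_iff_isUnit.1 hCinj
    refine ⟨C⁻¹, j.symm, fun u w => h.symm.injective ?_⟩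
    rw [LinearEquiv.symm_apply_apply, hC, j.apply_symm_apply, Matrix.mulVec_mulVec,
      Matrix.mul_nonsing_inv _ (Matrix.isUnit_iff_isUnit_det _ |>.1 hU), Matrix.one_mulVec]

end Cfsg.Agent.MaxSub.TensorPow
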