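import Cfsg.Agent.MaxSub.TensorPow.Split
import Cfsg.Agent.GeoClasses.Tensor

/-!
Tensor powers of `F^m` as functions on `Fin t → Fin m`: pure tensors, the monomial group `N`,
slicing off the first factor.
-/

set_option autoImplicit false
set_option linter.style.haveILetI false
set_option linter.unusedSectionVars false

namespace Cfsg.Agent.MaxSub.TensorPow

open Module Matrix Cfsg.Agent.MaxSub.ExtField Cfsg.Agent.GeoClasses

variable {F : Type*} [Field F] {m t : ℕ}

/-- The tensor power. -/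
abbrev Ten (F : Type*) (m t : ℕ) : Type _ := (Fin t → Fin m) → F

/-- A pure tensor. -/
def pvec (us : Fin t → Fin m → F) : Ten F m t := fun z => ∏ i, us i (z i)

lemma pvec_single (x : Fin t → Fin m) :
    pvec (fun i => Pi.single (x i) (1 : F)) = Pi.single x 1 := by
  classical
  funext z
  rcases eq_or_ne z x with rfl | h
  · simp [pvec]
  · obtain ⟨i, hi⟩ := Function.ne_iff.1 h
    rw [Pi.single_eq_of_ne h, pvec]
    exact Finset.prod_eq_zero (Finset.mem_univ i) (Pi.single_eq_of_ne hi 1)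

lemma span_pvec : Submodule.span F (Set.range (pvec : _ → Ten F m t)) = ⊤ := by
  classical
  refine eq_top_iff.2 fun X _ => ?_
  rw [pi_eq_sum_univ' X]
  exact sum_mem fun x _ => Submodule.smul_mem _ _ (Submodule.subset_span ⟨_, pvec_single x⟩)

lemma ext_pvec {V' : Type*} [AddCommMonoid V'] [Module F V'] {f g : Ten F m t →ₗ[F] V'}
    (h : ∀ us, f (pvec us) = g (pvec us)) : f = g :=
  LinearMap.ext_on span_pvec (by rintro _ ⟨us, rfl⟩; exact h us)

lemma pvec_ne_zero {us : Fin t → Fin m → F} (h : ∀ i, us i ≠ 0) : pvec us ≠ 0 := by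
  choose z hz using fun i => Function.ne_iff.1 (h i)
  exact fun h0 => Finset.prod_ne_zero_iff.2 (fun i _ => hz i) (congrFun h0 z)

lemma pvec_eq_zero {us : Fin t → Fin m → F} {i : Fin t} (h : us i = 0) : pvec us = 0 :=
  funext fun z => Finset.prod_eq_zero (Finset.mem_univ i) (by rw [h]; rfl)

/-- Product functionals. -/
def fprod (ψs : Fin t → Fin m → F) : Ten F m t →ₗ[F] F := dotProductBilin F F (pvec ψs)

lemma fprod_pvec (ψs us : Fin t → Fin m → F) : fprod ψs (pvec us) = ∏ i, ψs i ⬝ᵥ us i := by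
  classical
  show pvec ψs ⬝ᵥ pvec us = _
  simp only [dotProduct, pvec, Fintype.prod_sum, Finset.prod_mul_distrib]

lemma pureMat_pvec (A : Fin t → Matrix (Fin m) (Fin m) F) (us : Fin t → Fin m → F) :
    pureMat A *ᵥ pvec us = pvec fun i => A i *ᵥ us i := by
  classical
  funext x
  simp only [Matrix.mulVec, dotProduct, pvec, pureMat, Fintype.prod_sum, Finset.prod_mul_distrib]

/-- `M` at the factor `j`, identity elsewhere. -/
def pos (j : Fin t) (M : Matrix (Fin m) (Fin m) F) : Matrix (Fin t → Fin m) (Fin t → Fin m) F :=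
  pureMat (Function.update (fun _ => 1) j M)

lemma pos_pvec (j : Fin t) (M : Matrix (Fin m) (Fin m) F) (us : Fin t → Fin m → F) :
    pos j M *ᵥ pvec us = pvec (Function.update us j (M *ᵥ us j)) := by
  rw [pos, pureMat_pvec]
  congr 1
  funext i
  rcases eq_or_ne i j with rfl | h
  · simp
  · simp [Function.update_of_ne h]

/-- The slices along the first factor. -/
def slice (F : Type*) [Field F] (m t : ℕ) : Ten F m (t + 1) ≃ₗ[F] (Fin m → Ten F m t) where
  toFun X a z := X (Fin.cons a z)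
  map_add' _ _ := rfl
  map_smul' _ _ := rfl
  invFun Y x := Y (x 0) (Fin.tail x)
  left_inv X := funext fun x => congrArg X (Fin.cons_self_tail x)
  right_inv Y := by funext a z; simp

lemma slice_pvec (us : Fin (t + 1) → Fin m → F) :
    slice F m t (pvec us) = ins (us 0) (pvec fun i => us i.succ) := by
  funext a z
  simp [slice, pvec, Fin.prod_univ_succ]

lemma slice_symm_ins_pvec (u : Fin m → F) (us : Fin t → Fin m → F) :
    (slice F m t).symm (ins u (pvec us)) = pvec (Fin.cons u us) := by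
  rw [LinearEquiv.symm_apply_eq, slice_pvec]
  simp

lemma slice_pureMat (A : Fin (t + 1) → Matrix (Fin m) (Fin m) F) (X : Ten F m (t + 1)) :
    slice F m t (pureMat A *ᵥ X) =
      fun a => ∑ b, A 0 a b • (pureMat (fun i => A i.succ) *ᵥ slice F m t X b) := by
  funext a z
  simp only [slice, LinearEquiv.coe_mk, LinearMap.coe_mk, AddHom.coe_mk, Matrix.mulVec, dotProduct,
    Finset.sum_apply, Pi.smul_apply, smul_eq_mul, Finset.mul_sum]
  rw [sum_sigma_cons]
  refine Finset.sum_congr rfl fun b _ => Finset.sum_congr rfl fun y _ => ?_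
  simp [pureMat, Fin.prod_univ_succ, mul_assoc]

lemma slice_pos_zero (M : Matrix (Fin m) (Fin m) F) (X : Ten F m (t + 1)) :
    slice F m t (pos 0 M *ᵥ X) = fun a => ∑ b, M a b • slice F m t X b := by
  rw [pos, slice_pureMat]
  simp [Fin.succ_ne_zero, pureMat_one]

lemma slice_pos_succ (j : Fin t) (M : Matrix (Fin m) (Fin m) F) (X : Ten F m (t + 1)) :
    slice F m t (pos j.succ M *ᵥ X) = fun a => pos j M *ᵥ slice F m t X a := by
  rw [pos, slice_pureMat]
  funext a
  rw [Finset.sum_eq_single a (fun b _ hb => by simp [(Fin.succ_ne_zero j).symm, hb.symm]) (by simp)]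
  simp only [Function.update_of_ne (Fin.succ_ne_zero j).symm, Matrix.one_apply_eq, one_smul, pos]
  congr 2
  funext i
  rcases eq_or_ne i j with rfl | h
  · simp
  · simp [Function.update_of_ne h, Function.update_of_ne ((Fin.succ_injective t).ne h)]

lemma root_slice (u φ : Fin m → F) (X : Ten F m (t + 1)) :
    slice F m t (pos 0 (vecMulVec u φ) *ᵥ X) = root u φ LinearMap.id (slice F m t X) := by
  rw [slice_pos_zero]
  funext a
  simp [root_apply, vecMulVec_apply, Finset.smul_sum, smul_smul]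

/-- Slicing as an isomorphism of groups. -/
def toS (F : Type*) [Field F] (m t : ℕ) :
    (Ten F m (t + 1) ≃ₗ[F] Ten F m (t + 1)) ≃*
      ((Fin m → Ten F m t) ≃ₗ[F] (Fin m → Ten F m t)) where
  toFun g := ((slice F m t).symm.trans g).trans (slice F m t)
  invFun h := ((slice F m t).trans h).trans (slice F m t).symm
  left_inv g := by ext X; simp
  right_inv h := by ext X; simp
  map_mul' g h := by ext X; simp

lemma toS_apply (g : Ten F m (t + 1) ≃ₗ[F] Ten F m (t + 1)) (Y : Fin m → Ten F m t) :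
    toS F m t g Y = slice F m t (g ((slice F m t).symm Y)) := rfl

/-- Permutation of the factors. -/
def perm (F : Type*) [Field F] (m : ℕ) (σ : Equiv.Perm (Fin t)) : Ten F m t ≃ₗ[F] Ten F m t :=
  LinearEquiv.funCongrLeft F F (Equiv.arrowCongr σ.symm (Equiv.refl (Fin m)))

lemma perm_pvec (σ : Equiv.Perm (Fin t)) (us : Fin t → Fin m → F) :
    perm F m σ (pvec us) = pvec fun i => us (σ.symm i) := by
  funext z
  simp only [perm, LinearEquiv.funCongrLeft_apply, LinearMap.funLeft_apply, pvec,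
    Equiv.arrowCongr_apply, Equiv.coe_refl, Function.comp_apply, id_eq, Equiv.symm_symm]
  rw [← Equiv.prod_comp σ (fun i => us (σ.symm i) (z i))]
  simp

/-- `g` permutes the factors by `σ` and transforms them by `A`. -/
def Wit (σ : Equiv.Perm (Fin t)) (A : Fin t → Matrix (Fin m) (Fin m) F)
    (g : Ten F m t ≃ₗ[F] Ten F m t) : Prop :=
  ∀ us, g (pvec us) = pvec fun i => A i *ᵥ us (σ i)

lemma Wit.mul {σ τ : Equiv.Perm (Fin t)} {A B : Fin t → Matrix (Fin m) (Fin m) F}
    {g h : Ten F m t ≃ₗ[F] Ten F m t} (hg : Wit σ A g) (hh : Wit τ B h) :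
    Wit (τ * σ) (fun i => A i * B (σ i)) (g * h) := fun us => by
  rw [LinearEquiv.mul_apply, hh, hg]
  simp [Matrix.mulVec_mulVec]

lemma wit_refl : Wit (1 : Equiv.Perm (Fin t)) (fun _ => (1 : Matrix (Fin m) (Fin m) F)) 1 :=
  fun us => by simp

lemma wit_perm (σ : Equiv.Perm (Fin t)) :
    Wit σ.symm (fun _ => (1 : Matrix (Fin m) (Fin m) F)) (perm F m σ) :=
  fun us => by simp [perm_pvec]

instance finite_auto [Finite F] : Finite (Ten F m t ≃ₗ[F] Ten F m t) :=
  Finite.of_injective (fun e => (e : Ten F m t → Ten F m t)) DFunLike.coe_injective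

/-- The stabiliser of the tensor decomposition. -/
def monomial (F : Type*) [Field F] [Finite F] (m t : ℕ) :
    Subgroup (Ten F m t ≃ₗ[F] Ten F m t) :=
  let S : Submonoid (Ten F m t ≃ₗ[F] Ten F m t) :=
    { carrier := {g | ∃ σ A, Wit σ A g}
      one_mem' := ⟨_, _, wit_refl⟩
      mul_mem' := by rintro g h ⟨σ, A, hg⟩ ⟨τ, B, hh⟩; exact ⟨_, _, hg.mul hh⟩ }
  { S with
    inv_mem' := fun {g} hg => by
      have : g⁻¹ = g ^ (orderOf g - 1) := by
        rw [inv_eq_iff_mul_eq_one, ← pow_succ', Nat.sub_add_cancel (orderOf_pos g),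
          pow_orderOf_eq_one]
      show g⁻¹ ∈ S
      rw [this]
      exact S.pow_mem hg _ }

lemma mem_monomial [Finite F] {g : Ten F m t ≃ₗ[F] Ten F m t} :
    g ∈ monomial F m t ↔ ∃ σ A, Wit σ A g := Iff.rfl

lemma monomial_one [Finite F] (g : Ten F m 1 ≃ₗ[F] Ten F m 1) : g ∈ monomial F m 1 := by
  classical
  let ev0 : (Fin m → F) ≃ₗ[F] Ten F m 1 :=
    LinearEquiv.funCongrLeft F F (Equiv.funUnique (Fin 1) (Fin m))
  refine ⟨1, fun _ => LinearMap.toMatrix' (ev0.symm.toLinearMap ∘ₗ g.toLinearMap ∘ₗ ev0.toLinearMap),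
    fun us => ?_⟩
  have hev : ∀ vs : Fin 1 → Fin m → F, pvec vs = ev0 (vs 0) := fun vs => by
    funext z; simp [ev0, pvec, LinearMap.funLeft]
  rw [hev, hev]
  simp

/-- A pure tensor with a factor `u` moved away determines it. -/
lemma wit_injective (hm : 2 ≤ m) {σ : Equiv.Perm (Fin t)} {A : Fin t → Matrix (Fin m) (Fin m) F}
    {g : Ten F m t ≃ₗ[F] Ten F m t} (hg : Wit σ A g) (i : Fin t) :
    Function.Injective (A i).mulVec := by
  intro u u' h
  by_contra hne
  haveI : NeZero m := ⟨by omega⟩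
  set e : Fin m → F := Pi.single 0 1
  have he : e ≠ 0 := by simp [e]
  set us : Fin t → Fin m → F := Function.update (fun _ => e) (σ i) (u - u')
  refine pvec_ne_zero (us := us) (fun k => ?_) (g.injective ?_)
  · rcases eq_or_ne k (σ i) with rfl | hk
    · simp [us, sub_ne_zero.2 hne]
    · simp [us, Function.update_of_ne hk, he]
  · rw [hg, map_zero]
    exact pvec_eq_zero (i := i) (by simp [us, Matrix.mulVec_sub, h])

lemma wit_surjective (hm : 2 ≤ m) {σ : Equiv.Perm (Fin t)} {A : Fin t → Matrix (Fin m) (Fin m) F}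
    {g : Ten F m t ≃ₗ[F] Ten F m t} (hg : Wit σ A g) (i : Fin t) :
    Function.Surjective (A i).mulVec :=
  (LinearMap.injective_iff_surjective (f := (A i).mulVecLin)).1 (wit_injective hm hg i)

/-- An element fixing the first factor is a tensor product with it. -/
lemma isT_of_wit (hm : 2 ≤ m) {σ : Equiv.Perm (Fin (t + 1))}
    {A : Fin (t + 1) → Matrix (Fin m) (Fin m) F}
    {g : Ten F m (t + 1) ≃ₗ[F] Ten F m (t + 1)} (hg : Wit σ A g) (h0 : σ 0 = 0) :
    ∃ k : Ten F m t ≃ₗ[F] Ten F m t,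
      (∀ us, k (pvec us) = pvec fun i => A i.succ *ᵥ (Fin.cons (0 : Fin m → F) us : Fin (t + 1) → Fin m → F) (σ i.succ)) ∧
      ∀ u w, toS F m t g (ins u w) = ins (A 0 *ᵥ u) (k w) := by
  classical
  haveI : NeZero m := ⟨by omega⟩
  set e : Fin m → F := Pi.single 0 1
  have he : e ≠ 0 := by simp [e]
  obtain ⟨ψ, hψ⟩ := exists_dot_one (u := A 0 *ᵥ e) (fun h => he (wit_injective hm hg 0 (by simpa using h)))
  let κ : Ten F m t →ₗ[F] Ten F m t := ev ψ ∘ₗ (toS F m t g).toLinearMap ∘ₗ ins e
  have hsucc : ∀ i : Fin t, σ i.succ ≠ 0 := fun i h => Fin.succ_ne_zero i (σ.injective (h.trans h0.symm))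
  have hgen : ∀ u us, toS F m t g (ins u (pvec us)) = ins (A 0 *ᵥ u)
      (pvec fun i => A i.succ *ᵥ (Fin.cons (0 : Fin m → F) us : Fin (t + 1) → Fin m → F) (σ i.succ)) := by
    intro u us
    rw [toS_apply, slice_symm_ins_pvec, hg, slice_pvec, h0, Fin.cons_zero]
    congr 2
    funext i
    obtain ⟨j, hj⟩ := Fin.exists_succ_eq.2 (hsucc i)
    rw [← hj, Fin.cons_succ, Fin.cons_succ]
  have hκ : ∀ us, κ (pvec us) =
      pvec fun i => A i.succ *ᵥ (Fin.cons (0 : Fin m → F) us : Fin (t + 1) → Fin m → F) (σ i.succ) := by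
    intro us
    show ev ψ (toS F m t g (ins e (pvec us))) = _
    rw [hgen, ev_ins, hψ, one_smul]
  have hall : ∀ u w, toS F m t g (ins u w) = ins (A 0 *ᵥ u) (κ w) := fun u w =>
    LinearMap.congr_fun (ext_pvec (f := (toS F m t g).toLinearMap ∘ₗ ins u)
      (g := ins (A 0 *ᵥ u) ∘ₗ κ) fun us => by simp [hgen, hκ]) w
  have hinj : Function.Injective κ := (injective_iff_map_eq_zero _).2 fun w hw => by
    refine ins_injective he ((toS F m t g).injective ?_)
    rw [hall, hw, map_zero, map_zero, map_zero]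
  exact ⟨LinearEquiv.ofInjectiveEndo κ hinj, hκ, hall⟩

/-- A tensor product with a monomial factor is monomial. -/
lemma mem_monomial_of_isT [Finite F] {g : Ten F m (t + 1) ≃ₗ[F] Ten F m (t + 1)}
    {B : Matrix (Fin m) (Fin m) F} {k : Ten F m t ≃ₗ[F] Ten F m t}
    (hBk : ∀ u w, toS F m t g (ins u w) = ins (B *ᵥ u) (k w)) (hk : k ∈ monomial F m t) :
    g ∈ monomial F m (t + 1) := by
  obtain ⟨σ, A, hA⟩ := hk
  refine ⟨Equiv.Perm.decomposeFin.symm (0, σ), Fin.cons B A, fun us => ?_⟩
  refine (slice F m t).injective ?_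
  have h := hBk (us 0) (pvec fun i => us i.succ)
  rw [toS_apply, ← slice_pvec, LinearEquiv.symm_apply_apply] at h
  rw [h, hA, slice_pvec]
  simp

lemma pvec_update (us : Fin t → Fin m → F) (j : Fin t) (v : Fin m → F) (z : Fin t → Fin m) :
    pvec (Function.update us j v) z = v (z j) * ∏ i ∈ Finset.univ.erase j, us i (z i) := by
  rw [pvec, ← Finset.mul_prod_erase _ _ (Finset.mem_univ j), Function.update_self]
  congr 1
  exact Finset.prod_congr rfl fun i hi => by rw [Function.update_of_ne (Finset.ne_of_mem_erase hi)]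

lemma pvec_update_add (us : Fin t → Fin m → F) (j : Fin t) (v v' : Fin m → F) :
    pvec (Function.update us j (v + v')) =
      pvec (Function.update us j v) + pvec (Function.update us j v') := by
  funext z
  simp [pvec_update, add_mul]

lemma pvec_update_smul (us : Fin t → Fin m → F) (j : Fin t) (c : F) (v : Fin m → F) :
    pvec (Function.update us j (c • v)) = c • pvec (Function.update us j v) := by
  funext z
  simp [pvec_update, mul_assoc]

lemma pos_mem_monomial [Finite F] {j : Fin t} {M : Matrix (Fin m) (Fin m) F}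
    {g : Ten F m t ≃ₗ[F] Ten F m t} (h : ∀ X, g X = X + pos j M *ᵥ X) : g ∈ monomial F m t := by
  refine ⟨1, Function.update (fun _ => 1) j (1 + M), fun us => ?_⟩
  have e : (fun i => Function.update (fun _ => (1 : Matrix (Fin m) (Fin m) F)) j (1 + M) i *ᵥ
      us ((1 : Equiv.Perm (Fin t)) i)) = Function.update us j (us j + M *ᵥ us j) := by
    funext i
    rcases eq_or_ne i j with rfl | hi
    · simp [Matrix.add_mulVec]
    · simp [Function.update_of_ne hi]
  rw [h, pos_pvec, e, pvec_update_add, Function.update_eq_self]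

/-- The transvections of each factor lie in `G`. -/
def Base (G : Subgroup (Ten F m t ≃ₗ[F] Ten F m t)) : Prop :=
  ∀ (j : Fin t) (u φ : Fin m → F), φ ⬝ᵥ u = 0 → Mem G (Matrix.toLin' (pos j (vecMulVec u φ)))

/-- Every permutation of the factors is realised in `G` up to a monomial part. -/
def Perms (G : Subgroup (Ten F m t ≃ₗ[F] Ten F m t)) : Prop :=
  ∀ σ : Equiv.Perm (Fin t), ∃ g ∈ G, ∃ A, Wit σ A g

/-- `G` contains every elementary transvection. -/
def Elem (G : Subgroup (Ten F m t ≃ₗ[F] Ten F m t)) : Prop :=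
  ∀ x y : Fin t → Fin m, x ≠ y → ∀ c : F, Mem G (Matrix.toLin' (Matrix.single x y c))

lemma hasFactor_toS {G : Subgroup (Ten F m (t + 1) ≃ₗ[F] Ten F m (t + 1))} (hB : Base G) :
    HasFactor (G.map (toS F m t).toMonoidHom) := fun u φ h => by
  obtain ⟨g, hg, hgx⟩ := hB 0 u φ h
  refine ⟨_, Subgroup.mem_map_of_mem _ hg, fun Y => ?_⟩
  show toS F m t g Y = _
  rw [toS_apply, hgx, map_add, LinearEquiv.apply_symm_apply, Matrix.toLin'_apply, root_slice,
    LinearEquiv.apply_symm_apply]

end Cfsg.Agent.MaxSub.TensorPow
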